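import Mathlib
import Cfsg.Agent.Lib.Helper80.GAPair
import Cfsg.Agent.Lib.Helper80.GARes

/-! STAR ladder: base definitions (group algebra over the local ring, reduction, evaluation). -/

set_option autoImplicit false
set_option linter.unusedSectionVars false

namespace Cfsg.Agent.Lib.Helper83.Star

open scoped BigOperators
open Cfsg Cfsg.Agent.Lib.Helper80 Cfsg.Agent.Lib.Helper80.GA Cfsg.Agent.Lib.Helper81

section mapR
variable {R S : Type*} [CommRing R] [CommRing S] {G : Type*} [Group G] [Fintype G]

/-- coefficientwise map (function level) -/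
def mapF (f : R →+* S) (a : GA R G) : GA S G := fun g => f (a g)

theorem mapF_apply (f : R →+* S) (a : GA R G) (g : G) : mapF f a g = f (a g) := rfl

/-- coefficientwise map of group algebras -/
noncomputable def mapR (f : R →+* S) : GA R G →+* GA S G where
  toFun a := mapF f a
  map_one' := by
    classical
    ext g
    rw [mapF_apply, GA.one_apply, GA.one_apply]
    split_ifs <;> simp
  map_mul' a b := by
    ext g
    rw [mapF_apply, GA.mul_apply, GA.mul_apply, map_sum]
    exact Finset.sum_congr rfl (fun x _ => map_mul f _ _)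
  map_zero' := by
    ext g
    exact map_zero f
  map_add' a b := by
    ext g
    exact map_add f _ _

@[simp] theorem mapR_apply (f : R →+* S) (a : GA R G) (g : G) : mapR f a g = f (a g) := rfl

theorem mapR_of (f : R →+* S) (x : G) : mapR f (of x : GA R G) = of x := by
  classical
  ext g
  rw [mapR_apply, GA.of_apply, GA.of_apply]
  split_ifs <;> simp

theorem mapR_cj (f : R →+* S) (x : G) (a : GA R G) : mapR f (cj x a) = cj x (mapR f a) := by
  ext g
  rw [mapR_apply, cj_apply, cj_apply, mapR_apply]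

theorem mapR_smul (f : R →+* S) (c : R) (a : GA R G) : mapR f (c • a) = f c • mapR f a := by
  ext g
  rw [mapR_apply, GA.smul_apply, GA.smul_apply, map_mul, mapR_apply]

theorem fixBy_mapR (f : R →+* S) {H : Subgroup G} {a : GA R G} (ha : FixBy H a) :
    FixBy H (mapR f a) := fun x hx => by rw [← mapR_cj, ha x hx]

theorem suppOn_mapR (f : R →+* S) {H : Subgroup G} {a : GA R G} (ha : SuppOn H a) :
    SuppOn H (mapR f a) := fun g hg => by rw [mapR_apply, ha g hg, map_zero]

theorem mapR_trunc (f : R →+* S) (H : Subgroup G) (a : GA R G) :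
    mapR f (trunc H a) = trunc H (mapR f a) := by
  ext g
  by_cases hg : g ∈ H
  · rw [mapR_apply, trunc_apply_mem _ hg, trunc_apply_mem _ hg, mapR_apply]
  · rw [mapR_apply, trunc_apply_not_mem _ hg, trunc_apply_not_mem _ hg, map_zero]

theorem mapR_br (f : R →+* S) (P : Subgroup G) (a : GA R G) :
    mapR f (br P a) = br P (mapR f a) := mapR_trunc f _ a

/-- lifting along a surjection, keeping supports and fixed points -/
theorem exists_lift_mapR (f : R →+* S) (hf : Function.Surjective f) (a : GA S G) :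
    ∃ b : GA R G, mapR f b = a ∧ (∀ H : Subgroup G, SuppOn H a → SuppOn H b) ∧
      (∀ H : Subgroup G, FixBy H a → FixBy H b) := by
  classical
  let s : S → R := fun y => if y = 0 then 0 else Function.surjInv hf y
  have hs : ∀ y, f (s y) = y := by
    intro y
    by_cases hy : y = 0
    · simp [s, hy]
    · simp only [s, if_neg hy]
      exact Function.surjInv_eq hf y
  obtain ⟨b, hb⟩ : ∃ b : GA R G, ∀ g, b g = s (a g) := ⟨fun g => s (a g), fun _ => rfl⟩
  refine ⟨b, ?_, ?_, ?_⟩
  · ext g
    rw [mapR_apply, hb]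
    exact hs _
  · intro H ha g hg
    rw [hb, ha g hg]
    simp [s]
  · intro H ha
    rw [fixBy_iff] at ha ⊢
    intro x hx g
    rw [hb, hb, ha x hx g]

end mapR

variable {p : ℕ} {M : Ideal AlgInt} {G : Type*} [Group G] [Fintype G]

/-- reduction `𝒪G → kG` -/
noncomputable def redO (hM : IsPModular p M) : GA (locRing hM) G →+* GA (Kr hM) G :=
  mapR (resR hM)

/-- evaluation of a complex function on an element of `𝒪G` -/
noncomputable def ev (hM : IsPModular p M) (τ : G → ℂ) (a : GA (locRing hM) G) : ℂ :=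
  ∑ g, ((a g : locRing hM) : ℂ) * τ g

/-- the twisted restriction `u ↦ τ(u j)` to a subgroup `Q` -/
noncomputable def tw (hM : IsPModular p M) (τ : G → ℂ) (Q : Subgroup G)
    (j : GA (locRing hM) G) : Q → ℂ :=
  fun u => ev hM τ (of (u : G) * j)

/-- `j` is a primitive idempotent of the algebra of `Q`-fixed points (any coefficient ring);
zero is allowed -/
def Prim {R : Type*} [CommRing R] (Q : Subgroup G) (j : GA R G) : Prop :=
  FixBy Q j ∧ j * j = j ∧ ∀ i : GA R G, FixBy Q i → i * i = i → j * i = i → i * j = i →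
    i = 0 ∨ i = j

/-- the corner `j (kG)^Q j` consists of scalars plus nilpotents -/
def LocAt {k : Type*} [Field k] (Q : Subgroup G) (j : GA k G) : Prop :=
  ∀ a : GA k G, FixBy Q a → j * a = a → a * j = a → ∃ c : k, IsNilpotent (a - c • j)

section ev
variable (hM : IsPModular p M)

theorem ev_add (τ : G → ℂ) (a b : GA (locRing hM) G) :
    ev hM τ (a + b) = ev hM τ a + ev hM τ b := by
  unfold ev
  rw [← Finset.sum_add_distrib]
  refine Finset.sum_congr rfl (fun g _ => ?_)
  rw [GA.add_apply]
  push_cast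
  ring

theorem ev_zero (τ : G → ℂ) : ev hM τ (0 : GA (locRing hM) G) = 0 := by
  unfold ev
  simp

theorem ev_neg (τ : G → ℂ) (a : GA (locRing hM) G) : ev hM τ (-a) = - ev hM τ a := by
  unfold ev
  rw [← Finset.sum_neg_distrib]
  refine Finset.sum_congr rfl (fun g _ => ?_)
  rw [GA.neg_apply]
  push_cast
  ring

theorem ev_sub (τ : G → ℂ) (a b : GA (locRing hM) G) :
    ev hM τ (a - b) = ev hM τ a - ev hM τ b := by
  rw [sub_eq_add_neg, ev_add, ev_neg, sub_eq_add_neg]

theorem ev_smul (τ : G → ℂ) (c : locRing hM) (a : GA (locRing hM) G) :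
    ev hM τ (c • a) = (c : ℂ) * ev hM τ a := by
  unfold ev
  rw [Finset.mul_sum]
  refine Finset.sum_congr rfl (fun g _ => ?_)
  rw [GA.smul_apply]
  push_cast
  ring

theorem ev_sum {ι : Type*} (τ : G → ℂ) (s : Finset ι) (f : ι → GA (locRing hM) G) :
    ev hM τ (∑ i ∈ s, f i) = ∑ i ∈ s, ev hM τ (f i) := by
  classical
  induction s using Finset.induction_on with
  | empty => simp [ev_zero]
  | insert a s ha ih => rw [Finset.sum_insert ha, Finset.sum_insert ha, ev_add, ih]

theorem ev_of (τ : G → ℂ) (x : G) : ev hM τ (of x) = τ x := by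
  classical
  unfold ev
  rw [Finset.sum_eq_single x]
  · rw [GA.of_apply, if_pos rfl]; simp
  · intro g _ hg
    rw [GA.of_apply, if_neg hg]; simp
  · intro h; exact absurd (Finset.mem_univ _) h

/-- linearity in the function -/
theorem ev_fun_sub_smul (τ₁ τ₂ : G → ℂ) (c : ℂ) (a : GA (locRing hM) G) :
    ev hM (fun g => τ₁ g - c * τ₂ g) a = ev hM τ₁ a - c * ev hM τ₂ a := by
  unfold ev
  rw [Finset.mul_sum, ← Finset.sum_sub_distrib]
  exact Finset.sum_congr rfl (fun g _ => by ring)

theorem ev_eq_sum_of (τ : G → ℂ) (a b : GA (locRing hM) G) :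
    ev hM τ (a * b) = ∑ h, ((a h : locRing hM) : ℂ) * ev hM τ (of h * b) := by
  conv_lhs => rw [GA.eq_sum_of a, Finset.sum_mul, ev_sum]
  refine Finset.sum_congr rfl (fun h _ => ?_)
  rw [smul_mul_assoc, ev_smul]

theorem ev_of_mul_of (τ : G → ℂ) (hτ : IsClassFunction G τ) (x y : G) :
    ev hM τ (of x * of y) = ev hM τ (of y * of x) := by
  rw [GA.of_mul_of, GA.of_mul_of, ev_of, ev_of]
  have := hτ (x * y) y
  rw [← this]
  congr 1
  group

/-- a class function is a central form -/
theorem ev_mul_comm (τ : G → ℂ) (hτ : IsClassFunction G τ) (a b : GA (locRing hM) G) :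
    ev hM τ (a * b) = ev hM τ (b * a) := by
  conv_lhs => rw [GA.eq_sum_of a, GA.eq_sum_of b]
  conv_rhs => rw [GA.eq_sum_of a, GA.eq_sum_of b]
  simp only [Finset.sum_mul, Finset.mul_sum, ev_sum, smul_mul_assoc, mul_smul_comm, ev_smul]
  rw [Finset.sum_comm]
  refine Finset.sum_congr rfl (fun x _ => Finset.sum_congr rfl (fun y _ => ?_))
  rw [ev_of_mul_of hM τ hτ]
  ring

theorem ev_cj (τ : G → ℂ) (hτ : IsClassFunction G τ) (x : G) (a : GA (locRing hM) G) :
    ev hM τ (cj x a) = ev hM τ a := by
  unfold cj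
  rw [ev_mul_comm hM τ hτ, ← mul_assoc, GA.of_inv_mul_of, one_mul]

end ev

section red
variable (hM : IsPModular p M)

theorem redO_apply (a : GA (locRing hM) G) (g : G) : redO hM a g = resR hM (a g) := rfl
theorem redO_of (x : G) : redO hM (of x : GA (locRing hM) G) = of x := mapR_of _ x
theorem redO_cj (x : G) (a : GA (locRing hM) G) : redO hM (cj x a) = cj x (redO hM a) :=
  mapR_cj _ x a
theorem redO_smul (c : locRing hM) (a : GA (locRing hM) G) :
    redO hM (c • a) = resR hM c • redO hM a := mapR_smul _ c a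
theorem fixBy_redO {H : Subgroup G} {a : GA (locRing hM) G} (ha : FixBy H a) :
    FixBy H (redO hM a) := fixBy_mapR _ ha
theorem suppOn_redO {H : Subgroup G} {a : GA (locRing hM) G} (ha : SuppOn H a) :
    SuppOn H (redO hM a) := suppOn_mapR _ ha
theorem redO_br (P : Subgroup G) (a : GA (locRing hM) G) :
    redO hM (br P a) = br P (redO hM a) := mapR_br _ P a
theorem exists_lift_redO (a : GA (Kr hM) G) :
    ∃ b : GA (locRing hM) G, redO hM b = a ∧ (∀ H : Subgroup G, SuppOn H a → SuppOn H b) ∧
      (∀ H : Subgroup G, FixBy H a → FixBy H b) :=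
  exists_lift_mapR _ (resR_surjective hM) a

end red

end Cfsg.Agent.Lib.Helper83.Star
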