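import Mathlib
import Cfsg.Agent.Lib.Helper83.Star.Base
import Cfsg.Agent.Lib.Helper4.FixedChar

set_option autoImplicit false
set_option linter.unusedSectionVars false

namespace Cfsg.Agent.Lib.Helper83.Star

open scoped BigOperators
open Cfsg Cfsg.Agent.Lib.Helper80 Cfsg.Agent.Lib.Helper80.GA Cfsg.Agent.Lib.Helper81

variable {p : ℕ} [Fact p.Prime] {M : Ideal AlgInt} {G : Type*} [Group G] [Fintype G]

theorem isCharacter_tw (hM : IsPModular p M) {χ : G → ℂ} (hχ : IsCharacter G χ) {Q : Subgroup G}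
    {j : GA (locRing hM) G} (hfix : FixBy Q j) (hj : j * j = j) :
    IsCharacter Q (tw hM χ Q j) := by
  classical
  obtain ⟨n, ρ, rfl⟩ := hχ
  let e : (Fin n → ℂ) →ₗ[ℂ] (Fin n → ℂ) := ∑ g : G, ((j g : locRing hM) : ℂ) • ρ g
  have hee : e * e = e := by
    change (∑ g : G, ((j g : locRing hM) : ℂ) • ρ g) * (∑ g : G, ((j g : locRing hM) : ℂ) • ρ g)
      = ∑ g : G, ((j g : locRing hM) : ℂ) • ρ g
    conv_rhs => rw [← hj]
    rw [Finset.sum_mul_sum]
    have h1 : ∀ g : G, (((j * j) g : locRing hM) : ℂ) • ρ g =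
        ∑ x : G, (((j x : locRing hM) : ℂ) • ρ x) * (((j (x⁻¹ * g) : locRing hM) : ℂ) • ρ (x⁻¹ * g)) := by
      intro g
      rw [GA.mul_apply]
      push_cast
      rw [Finset.sum_smul]
      refine Finset.sum_congr rfl (fun x _ => ?_)
      rw [smul_mul_smul_comm, ← map_mul, mul_inv_cancel_left]
    simp only [h1]
    conv_rhs => rw [Finset.sum_comm]
    refine Finset.sum_congr rfl (fun x _ => ?_)
    exact (Equiv.sum_comp (Equiv.mulLeft x⁻¹)
      (fun y => (((j x : locRing hM) : ℂ) • ρ x) * (((j y : locRing hM) : ℂ) • ρ y))).symm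
  have hcomm : ∀ u ∈ Q, ρ u * e = e * ρ u := by
    intro u hu
    change ρ u * (∑ g : G, ((j g : locRing hM) : ℂ) • ρ g) =
      (∑ g : G, ((j g : locRing hM) : ℂ) • ρ g) * ρ u
    rw [Finset.mul_sum, Finset.sum_mul]
    rw [← Equiv.sum_comp (MulAut.conj u).toEquiv
      (fun g => (((j g : locRing hM) : ℂ) • ρ g) * ρ u)]
    refine Finset.sum_congr rfl (fun g _ => ?_)
    have h2 : j (u * g * u⁻¹) = j g := (fixBy_iff.mp hfix) u hu g
    change _ = (((j (u * g * u⁻¹) : locRing hM) : ℂ) • ρ (u * g * u⁻¹)) * ρ u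
    rw [h2, mul_smul_comm, smul_mul_assoc, ← map_mul, ← map_mul]
    congr 2
    group
  let W : Submodule ℂ (Fin n → ℂ) := LinearMap.range e
  have he : LinearMap.IsProj W e := by
    constructor
    · intro v
      exact LinearMap.mem_range_self e v
    · rintro v ⟨w, rfl⟩
      change (e * e) w = e w
      rw [hee]
  have hW : ∀ t : Q, ∀ w ∈ W, ρ (t : G) w ∈ W := by
    rintro t w ⟨v, rfl⟩
    refine ⟨ρ (t : G) v, ?_⟩
    change (e * ρ (t : G)) v = (ρ (t : G) * e) v
    rw [hcomm t t.2]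
  let σ : Representation ℂ Q W :=
    { toFun := fun t => (ρ (t : G)).restrict (hW t)
      map_one' := by
        ext w
        simp
      map_mul' := by
        intro s t
        ext w
        simp }
  have hσ := Cfsg.Agent.Lib.Helper4.isCharacter_of_rep σ
  convert hσ using 1
  funext t
  change _ = LinearMap.trace ℂ W ((ρ (t : G)).restrict (hW t))
  rw [Cfsg.Agent.Lib.Helper4.trace_restrict_eq_trace_comp_proj he]
  change _ = LinearMap.trace ℂ _ (ρ (t : G) * (∑ g : G, ((j g : locRing hM) : ℂ) • ρ g))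
  rw [Finset.mul_sum, map_sum]
  unfold tw ev
  rw [← Equiv.sum_comp (Equiv.mulLeft (t : G))]
  refine Finset.sum_congr rfl (fun g _ => ?_)
  rw [GA.of_mul_apply, mul_smul_comm, map_smul, smul_eq_mul, ← map_mul]
  change ((j ((t : G)⁻¹ * ((t : G) * g)) : locRing hM) : ℂ) * _ = _
  rw [inv_mul_cancel_left]
  rfl

end Cfsg.Agent.Lib.Helper83.Star
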