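import Mathlib
import Cfsg.Agent.Lib.Helper83.Star.Base
import Cfsg.Agent.Lib.Helper81.StarLD
import Cfsg.Agent.Lib.Helper81.StarFit
import Cfsg.Agent.Lib.Helper5.StarSplit

set_option autoImplicit false
set_option linter.unusedSectionVars false

namespace Cfsg.Agent.Lib.Helper83.Star

open scoped BigOperators
open Cfsg Cfsg.Agent.Lib.Helper80 Cfsg.Agent.Lib.Helper80.GA Cfsg.Agent.Lib.Helper81

variable {p : ℕ} [Fact p.Prime] {M : Ideal AlgInt} {G : Type*} [Group G] [Fintype G]

/-- the subring of elements supported on `H` and fixed by `T` -/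
def sfRing (R : Type*) [CommRing R] (H T : Subgroup G) : Subring (GA R G) where
  carrier := {a | SuppOn H a ∧ FixBy T a}
  mul_mem' := fun ha hb => ⟨ha.1.mul hb.1, ha.2.mul hb.2⟩
  one_mem' := ⟨SuppOn.one, FixBy.one⟩
  add_mem' := fun ha hb => ⟨ha.1.add hb.1, ha.2.add hb.2⟩
  zero_mem' := ⟨SuppOn.zero, FixBy.zero⟩
  neg_mem' := fun {a} ha => ⟨ha.1.neg, by
    have := FixBy.sub (FixBy.zero (H := T) (k := R)) ha.2
    rwa [zero_sub] at this⟩

theorem mem_sfRing {R : Type*} [CommRing R] {H T : Subgroup G} {a : GA R G} :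
    a ∈ sfRing R H T ↔ SuppOn H a ∧ FixBy T a := Iff.rfl

section gen

open Polynomial

variable {R : Type*} [CommRing R]

theorem aeval_mem_sfRing {H T : Subgroup G} {a : GA R G} (ha : a ∈ sfRing R H T) (P : R[X]) :
    aeval a P ∈ sfRing R H T := by
  induction P using Polynomial.induction_on' with
  | add P Q hP hQ => rw [map_add]; exact (sfRing R H T).add_mem hP hQ
  | monomial n r =>
    rw [aeval_monomial, Algebra.algebraMap_eq_smul_one, smul_mul_assoc, one_mul]
    have h := (sfRing R H T).pow_mem ha n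
    exact ⟨h.1.smul r, h.2.smul r⟩

theorem aeval_comm (a : GA R G) (P Q : R[X]) : aeval a P * aeval a Q = aeval a Q * aeval a P := by
  rw [← map_mul, ← map_mul, mul_comm]

theorem aeval_comm_self (a : GA R G) (P : R[X]) : a * aeval a P = aeval a P * a := by
  have := aeval_comm a X P
  rwa [aeval_X] at this

theorem aeval_coeff_mem (I : Ideal R) (a : GA R G) (w : R[X]) (hw : w ∈ I.map (C : R →+* R[X]))
    (g : G) : (aeval a w) g ∈ I := by
  rw [Ideal.mem_map_C_iff] at hw
  rw [aeval_eq_sum_range, GA.sum_apply]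
  refine I.sum_mem (fun i _ => ?_)
  rw [GA.smul_apply]
  exact I.mul_mem_right _ (hw i)

theorem idem_eq_zero_of_coeff_mem (I : Ideal R) (hI : ∀ r : R, r ∈ I ∨ IsUnit r) (hI1 : I ≠ ⊤)
    {e : GA R G} (he : e * e = e) (hs : ∀ g, e g ∈ I) : e = 0 := by
  have hjac : I ≤ Ideal.jacobson ⊥ := by
    intro r hr
    rw [Ideal.mem_jacobson_bot]
    intro y
    rcases hI (r * y + 1) with h | h
    · exfalso
      apply hI1
      rw [Ideal.eq_top_iff_one]
      have := I.sub_mem h (I.mul_mem_right y hr)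
      simpa using this
    · exact h
  set J : Ideal R := Ideal.span (Set.range (fun g => e g)) with hJ
  have hJfg : (J : Submodule R R).FG :=
    Submodule.fg_span (Set.finite_range (fun g => e g))
  have hle : J ≤ I • J := by
    rw [hJ, Ideal.span_le]
    rintro _ ⟨g, rfl⟩
    show e g ∈ I • J
    have heg : e g = ∑ x, e x * e (x⁻¹ * g) := by
      conv_lhs => rw [← he]
      rw [GA.mul_apply]
    rw [heg]
    refine Submodule.sum_mem _ (fun x _ => ?_)
    exact Submodule.smul_mem_smul (hs x) (Ideal.subset_span ⟨_, rfl⟩)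
  have h0 := Submodule.eq_bot_of_le_smul_of_le_jacobson_bot I J hJfg hle hjac
  ext g
  have : e g ∈ J := Ideal.subset_span ⟨g, rfl⟩
  rw [h0] at this
  exact this

theorem exists_ld_gen (I : Ideal R) (hI : ∀ r : R, r ∈ I ∨ IsUnit r) (hI1 : I ≠ ⊤)
    (hsplit : ∀ f : R[X], f.Monic → ∃ s : Multiset R, f = (s.map (fun a => X - C a)).prod)
    (H T : Subgroup G) :
    ∃ D : LD (GA R G), D.S = sfRing R H T ∧ ∀ a, D.sm a ↔ ∀ g, a g ∈ I := by
  refine ⟨{ S := sfRing R H T
            sm := fun a => ∀ g, a g ∈ I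
            sm_zero := fun g => I.zero_mem
            sm_add := fun ha hb g => I.add_mem (ha g) (hb g)
            sm_neg := fun ha g => I.neg_mem (ha g)
            sm_mul_left := ?_
            sm_mul_right := ?_
            sm_idem := fun he hs => idem_eq_zero_of_coeff_mem I hI hI1 he hs
            fit := ?_ }, rfl, fun a => Iff.rfl⟩
  · intro a b _ ha g
    rw [GA.mul_apply]
    exact I.sum_mem (fun x _ => I.mul_mem_left _ (ha _))
  · intro a b _ ha g
    rw [GA.mul_apply]
    exact I.sum_mem (fun x _ => I.mul_mem_right _ (ha _))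
  · intro a ha
    obtain ⟨f, hf, hfa⟩ := (Algebra.IsIntegral.of_finite R (GA R G)).isIntegral a
    obtain ⟨s, hs⟩ := hsplit f hf
    have hs' : aeval a (s.map fun α => (X - C α : R[X])).prod = 0 := by
      rw [← hs]; exact hfa
    obtain ⟨u, c, w, n, h1, h2, h3, h4⟩ := fitting_poly I hI a s hs'
    refine ⟨aeval a u, aeval_mem_sfRing ha u, aeval a c, aeval_mem_sfRing ha c, n, h1,
      aeval_comm_self a u, aeval_comm_self a c, aeval_comm a c u, h2, ?_⟩
    rw [h3]
    exact aeval_coeff_mem I a w h4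

end gen

theorem exists_ldO (hM : IsPModular p M) (H T : Subgroup G) :
    ∃ D : LD (GA (locRing hM) G), D.S = sfRing (locRing hM) H T ∧
      ∀ a, D.sm a ↔ redO hM a = 0 := by
  obtain ⟨D, hD1, hD2⟩ := exists_ld_gen (G := G) (locIdeal hM) (by
      intro r
      by_cases hr : r ∈ locIdeal hM
      · exact Or.inl hr
      · right
        have h1 : MemLocalRing M ((r : ℂ)⁻¹) := memLocalRing_inv r.2 hr
        have h2 : (r : ℂ) ≠ 0 := ne_zero_of_not_memLocalIdeal hM hr
        refine IsUnit.of_mul_eq_one ⟨(r : ℂ)⁻¹, h1⟩ ?_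
        apply Subtype.ext
        show (r : ℂ) * (r : ℂ)⁻¹ = 1
        exact mul_inv_cancel₀ h2) (locIdeal_ne_top hM)
      (Cfsg.Agent.Lib.Helper5.locRing_monic_splits hM) H T
  refine ⟨D, hD1, fun a => ?_⟩
  rw [hD2]
  constructor
  · intro h
    ext g
    rw [redO_apply, GA.zero_apply, resR_eq_zero_iff]
    exact h g
  · intro h g
    have := congrArg (fun c : GA (Kr hM) G => c g) h
    simp only [redO_apply, GA.zero_apply] at this
    rw [resR_eq_zero_iff] at this
    exact this

theorem exists_ldK (k : Type*) [Field k] [IsAlgClosed k] (H T : Subgroup G) :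
    ∃ D : LD (GA k G), D.S = sfRing k H T ∧ ∀ a, D.sm a ↔ a = 0 := by
  obtain ⟨D, hD1, hD2⟩ := exists_ld_gen (G := G) (⊥ : Ideal k) (by
      intro r
      by_cases hr : r = 0
      · exact Or.inl hr
      · exact Or.inr (isUnit_iff_ne_zero.mpr hr)) bot_ne_top (by
      intro f hf
      refine ⟨f.roots, ?_⟩
      have := (IsAlgClosed.splits f).eq_prod_roots
      rw [hf.leadingCoeff, Polynomial.C_1, one_mul] at this
      exact this) H T
  refine ⟨D, hD1, fun a => ?_⟩
  rw [hD2]
  constructor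
  · intro h
    ext g
    exact h g
  · rintro rfl g
    exact Ideal.zero_mem _

/-- LIFT: idempotent lifting inside `e (𝒪H)^T e` -/
theorem lift_idem_corner (hM : IsPModular p M) (H T : Subgroup G) {e : GA (locRing hM) G}
    (heS : SuppOn H e) (heF : FixBy T e) (he : e * e = e) {l : GA (Kr hM) G}
    (hlS : SuppOn H l) (hlF : FixBy T l) (hl : l * l = l)
    (h1 : redO hM e * l = l) (h2 : l * redO hM e = l) :
    ∃ l' : GA (locRing hM) G, SuppOn H l' ∧ FixBy T l' ∧ l' * l' = l' ∧ e * l' = l' ∧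
      l' * e = l' ∧ redO hM l' = l := by
  obtain ⟨D, hD1, hD2⟩ := exists_ldO hM H T
  obtain ⟨a0, ha0, ha0S, ha0F⟩ := exists_lift_redO hM l
  have heD : e ∈ D.S := by rw [hD1]; exact ⟨heS, heF⟩
  have ha0D : a0 ∈ D.S := by rw [hD1]; exact ⟨ha0S H hlS, ha0F T hlF⟩
  set a := e * a0 * e with ha
  have haD : a ∈ D.S := D.S.mul_mem (D.S.mul_mem heD ha0D) heD
  have hra : redO hM a = l := by
    rw [ha, map_mul, map_mul, ha0, h1, h2]
  have hsm : D.sm (a * a - a) := by
    rw [hD2, map_sub, map_mul, hra, hl, sub_self]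
  obtain ⟨l', hl'D, hl'l', hl'a, ⟨x, -, hx⟩, ⟨y, -, hy⟩⟩ := LD.lift_idem haD hsm
  rw [hD1] at hl'D
  refine ⟨l', hl'D.1, hl'D.2, hl'l', ?_, ?_, ?_⟩
  · rw [hx, ← mul_assoc, ha, ← mul_assoc, ← mul_assoc, he]
  · rw [hy, mul_assoc, ha, mul_assoc, he]
  · rw [hD2, map_sub, hra, sub_eq_zero] at hl'a
    exact hl'a

end Cfsg.Agent.Lib.Helper83.Star
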