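import Mathlib
import Cfsg.Agent.Lib.Helper83.Star.Base
import Cfsg.Agent.Lib.Helper81.PermTrace2
import Cfsg.Agent.Lib.Helper81.TraceLemma

set_option autoImplicit false
set_option linter.unusedSectionVars false

namespace Cfsg.Agent.Lib.Helper83.Star

open scoped BigOperators
open Cfsg Cfsg.Agent.Lib.Helper80 Cfsg.Agent.Lib.Helper80.GA Cfsg.Agent.Lib.Helper81

variable {p : ℕ} [Fact p.Prime] {M : Ideal AlgInt} {G : Type*} [Group G] [Fintype G]

namespace TLV

variable {Ω : Type*} [Fintype Ω] [DecidableEq Ω]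

/-- all entries in the local ring -/
def InO (M : Ideal AlgInt) (A : Matrix Ω Ω ℂ) : Prop := ∀ i j, MemLocalRing M (A i j)
/-- all entries in the local ideal -/
def InI (M : Ideal AlgInt) (A : Matrix Ω Ω ℂ) : Prop := ∀ i j, MemLocalIdeal M (A i j)
/-- commutes with the permutation -/
def Eqv (σ : Equiv.Perm Ω) (A : Matrix Ω Ω ℂ) : Prop := ∀ i j, A (σ i) (σ j) = A i j

theorem InO.mul (hM : IsPModular p M) {A B : Matrix Ω Ω ℂ} (hA : InO M A) (hB : InO M B) :
    InO M (A * B) := by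
  intro i j
  rw [Matrix.mul_apply]
  exact memLocalRing_sum hM _ _ (fun k _ => memLocalRing_mul hM (hA i k) (hB k j))

theorem InO.add (hM : IsPModular p M) {A B : Matrix Ω Ω ℂ} (hA : InO M A) (hB : InO M B) :
    InO M (A + B) := fun i j => memLocalRing_add hM (hA i j) (hB i j)

theorem InI.mul_left (hM : IsPModular p M) {A B : Matrix Ω Ω ℂ} (hA : InO M A) (hB : InI M B) :
    InI M (A * B) := by
  intro i j
  rw [Matrix.mul_apply]
  exact memLocalIdeal_sum hM _ _ (fun k _ => memLocalIdeal_mul_left hM (hA i k) (hB k j))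

theorem InI.mul_right (hM : IsPModular p M) {A B : Matrix Ω Ω ℂ} (hA : InI M A) (hB : InO M B) :
    InI M (A * B) := by
  intro i j
  rw [Matrix.mul_apply]
  exact memLocalIdeal_sum hM _ _ (fun k _ => memLocalIdeal_mul_right hM (hA i k) (hB k j))

theorem Eqv.mul {σ : Equiv.Perm Ω} {A B : Matrix Ω Ω ℂ} (hA : Eqv σ A) (hB : Eqv σ B) :
    Eqv σ (A * B) := by
  intro i j
  rw [Matrix.mul_apply, Matrix.mul_apply, ← Equiv.sum_comp σ]
  exact Finset.sum_congr rfl (fun k _ => by rw [hA, hB])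

theorem Eqv.add {σ : Equiv.Perm Ω} {A B : Matrix Ω Ω ℂ} (hA : Eqv σ A) (hB : Eqv σ B) :
    Eqv σ (A + B) := fun i j => by rw [Matrix.add_apply, Matrix.add_apply, hA, hB]

theorem Eqv.sub {σ : Equiv.Perm Ω} {A B : Matrix Ω Ω ℂ} (hA : Eqv σ A) (hB : Eqv σ B) :
    Eqv σ (A - B) := fun i j => by rw [Matrix.sub_apply, Matrix.sub_apply, hA, hB]

theorem Eqv.one (σ : Equiv.Perm Ω) : Eqv σ (1 : Matrix Ω Ω ℂ) := by
  intro i j
  by_cases h : i = j
  · subst h; simp
  · rw [Matrix.one_apply_ne h, Matrix.one_apply_ne (fun h' => h (σ.injective h'))]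

theorem Eqv.diagonal {σ : Equiv.Perm Ω} {d : Ω → ℂ} (hd : ∀ ω, d (σ ω) = d ω) :
    Eqv σ (Matrix.diagonal d) := by
  intro i j
  by_cases h : i = j
  · subst h; simp [hd]
  · rw [Matrix.diagonal_apply_ne _ h, Matrix.diagonal_apply_ne _ (fun h' => h (σ.injective h'))]

/-- inverse, over the local ring, of a matrix congruent to `1`. -/
theorem exists_inv_of_congr_one (hM : IsPModular p M)
    (U : Matrix Ω Ω ℂ) (h : InI M (U - 1)) :
    ∃ V : Matrix Ω Ω ℂ, InO M V ∧ U * V = 1 ∧ V * U = 1 := by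
  have hR : ∀ i j, MemLocalRing M (U i j) := by
    intro i j
    have h1 : U i j = (U - 1) i j + (1 : Matrix Ω Ω ℂ) i j := by simp
    rw [h1]
    refine memLocalRing_add hM (memLocalRing_of_memLocalIdeal (h i j)) ?_
    by_cases hij : i = j
    · subst hij; simpa using memLocalRing_one hM
    · simpa [Matrix.one_apply_ne hij] using memLocalRing_zero hM
  let U' : Matrix Ω Ω (locRing hM) := fun i j => ⟨U i j, hR i j⟩
  have hU : U = U'.map (locRing hM).subtype := by
    ext i j; rfl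
  have hq : U'.map (Ideal.Quotient.mk (locIdeal hM)) = 1 := by
    ext i j
    rw [Matrix.map_apply]
    by_cases hij : i = j
    · subst hij
      rw [Matrix.one_apply_eq, ← map_one (Ideal.Quotient.mk (locIdeal hM)), Ideal.Quotient.eq,
        mem_locIdeal]
      have := h i i
      simpa using this
    · rw [Matrix.one_apply_ne hij, Ideal.Quotient.eq_zero_iff_mem, mem_locIdeal]
      have := h i j
      simpa [Matrix.one_apply_ne hij] using this
  have hdet : Ideal.Quotient.mk (locIdeal hM) U'.det = 1 := by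
    rw [RingHom.map_det, RingHom.mapMatrix_apply, hq, Matrix.det_one]
  have hnot : ¬ MemLocalIdeal M ((U'.det : locRing hM) : ℂ) := by
    intro hmem
    have h2 : U'.det ∈ locIdeal hM := (mem_locIdeal hM).2 hmem
    rw [← Ideal.Quotient.eq_zero_iff_mem, hdet] at h2
    have : (1 : locRing hM) ∈ locIdeal hM := by
      rw [← Ideal.Quotient.eq_zero_iff_mem, map_one]; exact h2
    exact (Ideal.ne_top_iff_one _).1 (locIdeal_ne_top hM) this
  have hne : ((U'.det : locRing hM) : ℂ) ≠ 0 := ne_zero_of_not_memLocalIdeal hM hnot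
  have hunit : IsUnit U'.det := by
    refine ⟨⟨U'.det, ⟨((U'.det : locRing hM) : ℂ)⁻¹, memLocalRing_inv U'.det.2 hnot⟩, ?_, ?_⟩, rfl⟩
    · apply Subtype.ext
      simp [hne]
    · apply Subtype.ext
      simp [hne]
  refine ⟨(U'⁻¹).map (locRing hM).subtype, fun i j => (U'⁻¹ i j).2, ?_, ?_⟩
  · rw [hU, ← Matrix.map_mul, Matrix.mul_nonsing_inv _ hunit]
    simp
  · rw [hU, ← Matrix.map_mul, Matrix.nonsing_inv_mul _ hunit]
    simp

theorem ring_core {R : Type*} [Ring R] (Φ eF eS V : R) (hΦ : Φ * Φ = Φ) (hsum : eF + eS = 1)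
    (hS : eS * eS = eS) (hWV : (1 - (Φ * eF * Φ) * (Φ * eF * Φ)) * V = 1) :
    (Φ * eS) * (eS * Φ * ((Φ + Φ * eF * Φ) * V)) = Φ := by
  have heS : eS = 1 - eF := by rw [← hsum]; abel
  have h1 : Φ * eS * (eS * Φ) = Φ - Φ * eF * Φ := by
    calc Φ * eS * (eS * Φ) = Φ * (eS * eS) * Φ := by noncomm_ring
      _ = Φ * eS * Φ := by rw [hS]
      _ = Φ * Φ - Φ * eF * Φ := by rw [heS]; noncomm_ring
      _ = Φ - Φ * eF * Φ := by rw [hΦ]
  have h2 : (Φ - Φ * eF * Φ) * (Φ + Φ * eF * Φ)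
      = Φ * (1 - (Φ * eF * Φ) * (Φ * eF * Φ)) := by
    have e1 : (Φ - Φ * eF * Φ) * (Φ + Φ * eF * Φ)
        = Φ * Φ + (Φ * Φ) * eF * Φ - Φ * eF * (Φ * Φ) - (Φ * eF * Φ) * (Φ * eF * Φ) := by
      noncomm_ring
    have e2 : Φ * (1 - (Φ * eF * Φ) * (Φ * eF * Φ))
        = Φ - (Φ * Φ) * eF * Φ * (Φ * eF * Φ) := by noncomm_ring
    rw [e1, e2, hΦ]; abel
  calc (Φ * eS) * (eS * Φ * ((Φ + Φ * eF * Φ) * V))
      = (Φ * eS * (eS * Φ)) * (Φ + Φ * eF * Φ) * V := by noncomm_ring
    _ = Φ * ((1 - (Φ * eF * Φ) * (Φ * eF * Φ)) * V) := by rw [h1, h2]; noncomm_ring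
    _ = Φ := by rw [hWV, mul_one]

theorem sum_swap {σ : Equiv.Perm Ω} {X Y : Matrix Ω Ω ℂ} (hY : Eqv σ Y) :
    ∑ ω, (Y * X) ω (σ ω) = ∑ ω, (X * Y) ω (σ ω) := by
  simp only [Matrix.mul_apply]
  rw [Finset.sum_comm]
  refine Finset.sum_congr rfl (fun k _ => ?_)
  rw [← Equiv.sum_comp σ (fun ω => X k ω * Y ω (σ k))]
  refine Finset.sum_congr rfl (fun ω _ => ?_)
  rw [hY, mul_comm]

end TLV

open TLV in
theorem sum_perm_idem_eq_zero_of_small (hM : IsPModular p M) {Ω : Type*} [Fintype Ω]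
    [DecidableEq Ω] (σ : Equiv.Perm Ω) (F : Ω → Prop) (hF : ∀ ω, F (σ ω) ↔ F ω)
    (hσ : ∀ ω : Ω, ¬ F ω → ∀ i : ℤ, (σ ^ i) ω = ω → (p : ℤ) ∣ i)
    (Φ : Matrix Ω Ω ℂ) (hΦR : ∀ i j, MemLocalRing M (Φ i j)) (hidem : Φ * Φ = Φ)
    (hcomm : ∀ i j, Φ (σ i) (σ j) = Φ i j)
    (hsmall : ∀ i j, F i → F j → MemLocalIdeal M (Φ i j)) :
    ∑ ω, Φ ω (σ ω) = 0 := by
  classical
  set eF : Matrix Ω Ω ℂ := Matrix.diagonal (fun ω => if F ω then 1 else 0) with heF
  set eS : Matrix Ω Ω ℂ := Matrix.diagonal (fun ω => if F ω then 0 else 1) with heS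
  have hΦO : InO M Φ := hΦR
  have hΦE : Eqv σ Φ := hcomm
  have heFO : InO M eF := by
    intro i j
    by_cases h : i = j
    · subst h
      rw [heF, Matrix.diagonal_apply_eq]
      split_ifs
      · exact memLocalRing_one hM
      · exact memLocalRing_zero hM
    · rw [heF, Matrix.diagonal_apply_ne _ h]; exact memLocalRing_zero hM
  have heSO : InO M eS := by
    intro i j
    by_cases h : i = j
    · subst h
      rw [heS, Matrix.diagonal_apply_eq]
      split_ifs
      · exact memLocalRing_zero hM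
      · exact memLocalRing_one hM
    · rw [heS, Matrix.diagonal_apply_ne _ h]; exact memLocalRing_zero hM
  have heFE : Eqv σ eF := Eqv.diagonal (fun ω => by simp only [hF])
  have heSE : Eqv σ eS := Eqv.diagonal (fun ω => by simp only [hF])
  have hsum : eF + eS = 1 := by
    rw [heF, heS, Matrix.diagonal_add, ← Matrix.diagonal_one]
    congr 1
    funext ω
    split_ifs <;> simp
  have hSS : eS * eS = eS := by
    rw [heS, Matrix.diagonal_mul_diagonal]
    congr 1
    funext ω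
    split_ifs <;> simp
  set N : Matrix Ω Ω ℂ := Φ * eF * Φ with hN
  have hmid : InI M (eF * Φ * eF) := by
    intro i j
    rw [heF, Matrix.mul_diagonal, Matrix.diagonal_mul]
    by_cases hi : F i
    · by_cases hj : F j
      · simpa [hi, hj] using hsmall i j hi hj
      · simpa [hj] using memLocalIdeal_zero hM
    · simpa [hi] using memLocalIdeal_zero hM
  have hNN : N * N = Φ * (eF * Φ * eF) * Φ := by
    calc N * N = Φ * eF * (Φ * Φ) * eF * Φ := by rw [hN]; noncomm_ring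
      _ = Φ * (eF * Φ * eF) * Φ := by rw [hidem]; noncomm_ring
  have hNNI : InI M (N * N) := by
    rw [hNN]
    exact InI.mul_right hM (InI.mul_left hM hΦO hmid) hΦO
  have hNE : Eqv σ N := (hΦE.mul heFE).mul hΦE
  have hNO : InO M N := InO.mul hM (InO.mul hM hΦO heFO) hΦO
  set W : Matrix Ω Ω ℂ := 1 - N * N with hW
  have hW1 : InI M (W - 1) := by
    intro i j
    have : (W - 1) i j = - (N * N) i j := by rw [hW]; simp
    rw [this]
    exact memLocalIdeal_neg (hNNI i j)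
  obtain ⟨V, hVO, hWV, hVW⟩ := exists_inv_of_congr_one hM W hW1
  have hWE : Eqv σ W := (Eqv.one σ).sub (hNE.mul hNE)
  have hVE : Eqv σ V := by
    -- uniqueness of the inverse
    set V' : Matrix Ω Ω ℂ := fun i j => V (σ i) (σ j) with hV'
    have h1 : W * V' = 1 := by
      ext i j
      have := congrFun (congrFun hWV (σ i)) (σ j)
      rw [Matrix.mul_apply, ← Equiv.sum_comp σ] at this
      rw [Matrix.mul_apply, ← Eqv.one σ i j, ← this]
      exact Finset.sum_congr rfl (fun k _ => by rw [hWE])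
    have h2 : V' = V := by
      calc V' = (V * W) * V' := by rw [hVW, one_mul]
        _ = V * (W * V') := by rw [mul_assoc]
        _ = V := by rw [h1, mul_one]
    intro i j
    exact congrFun (congrFun h2 i) j
  set X : Matrix Ω Ω ℂ := Φ * eS with hX
  set Y : Matrix Ω Ω ℂ := eS * Φ * ((Φ + N) * V) with hY
  have hXY : X * Y = Φ := ring_core Φ eF eS V hidem hsum hSS hWV
  have hYE : Eqv σ Y := (heSE.mul hΦE).mul ((hΦE.add hNE).mul hVE)
  have hYO : InO M Y :=
    InO.mul hM (InO.mul hM heSO hΦO) (InO.mul hM (InO.add hM hΦO hNO) hVO)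
  have hXE : Eqv σ X := hΦE.mul heSE
  have hXO : InO M X := InO.mul hM hΦO heSO
  have hidem2 : (Y * X) * (Y * X) = Y * X := by
    calc (Y * X) * (Y * X) = Y * (X * Y) * X := by noncomm_ring
      _ = Y * (Φ * Φ) * eS := by rw [hXY, hX]; noncomm_ring
      _ = Y * X := by rw [hidem, hX]; noncomm_ring
  have hsupp : ∀ i j, (Y * X) i j ≠ 0 → ¬ F i ∧ ¬ F j := by
    intro i j hne
    have e : Y * X = eS * (Φ * ((Φ + N) * V) * Φ) * eS := by rw [hY, hX]; noncomm_ring
    rw [e, heS, Matrix.mul_diagonal, Matrix.diagonal_mul] at hne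
    constructor
    · intro hi; apply hne; simp [hi]
    · intro hj; apply hne; simp [hj]
  have key := sum_perm_idem_eq_zero' hM σ (fun ω => ¬ F ω) (fun ω => by rw [hF]) hσ (Y * X)
    (InO.mul hM hYO hXO) hidem2 (hYE.mul hXE) hsupp
  rw [sum_swap hYE, hXY] at key
  exact key

end Cfsg.Agent.Lib.Helper83.Star
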