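import Mathlib
import Cfsg.Agent.Lib.Helper83.Star.Base
import Cfsg.Agent.Lib.Helper83.Star.TLV

set_option autoImplicit false
set_option linter.unusedSectionVars false

namespace Cfsg.Agent.Lib.Helper83.Star

open scoped BigOperators
open Cfsg Cfsg.Agent.Lib.Helper80 Cfsg.Agent.Lib.Helper80.GA Cfsg.Agent.Lib.Helper81

variable {p : ℕ} [Fact p.Prime] {M : Ideal AlgInt} {G : Type*} [Group G] [Fintype G]

namespace VAux

/-- the permutation `x ↦ v x g⁻¹` -/
def sg (v g : G) : Equiv.Perm G := Equiv.mulLeft v * Equiv.mulRight g⁻¹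

theorem sg_apply (v g x : G) : sg v g x = v * x * g⁻¹ := by
  simp [sg, mul_assoc]

theorem sg_zpow_apply (v g x : G) (n : ℤ) : (sg v g ^ n) x = v ^ n * x * (g ^ n)⁻¹ := by
  have hc : Commute (Equiv.mulLeft v) (Equiv.mulRight g⁻¹) := by
    ext y
    simp [mul_assoc]
  rw [sg, hc.mul_zpow, Equiv.zpow_mulLeft, Equiv.zpow_mulRight]
  simp [mul_assoc]

theorem semiconj_of_fix {v g x : G} {n : ℤ} (h : (sg v g ^ n) x = x) :
    SemiconjBy x (g ^ n) (v ^ n) := by
  rw [sg_zpow_apply] at h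
  show x * g ^ n = v ^ n * x
  conv_lhs => rw [← h]
  group

theorem exists_zpow_eq (hp : p.Prime) {v : G} {k : ℕ} (hk : v ^ (p ^ k) = 1) {m : ℤ}
    (hm : ¬ (p : ℤ) ∣ m) : ∃ c : ℤ, v ^ (m * c) = v := by
  have hpi : Prime (p : ℤ) := Nat.prime_iff_prime_int.1 hp
  have h1 : IsCoprime (p : ℤ) m := hpi.irreducible.coprime_iff_not_dvd.2 hm
  have h2 : IsCoprime ((p : ℤ) ^ k) m := h1.pow_left
  obtain ⟨a, b, hab⟩ := h2
  refine ⟨b, ?_⟩
  have e : m * b = 1 - a * (p : ℤ) ^ k := by rw [← hab]; ring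
  have hk' : v ^ ((p : ℤ) ^ k) = 1 := by
    have : ((p : ℤ) ^ k) = ((p ^ k : ℕ) : ℤ) := by push_cast; rfl
    rw [this, zpow_natCast, hk]
  rw [e, zpow_sub, zpow_one, mul_comm a, zpow_mul, hk']
  simp

end VAux

open VAux in
theorem sum_conj_eq_zero_of_br (hM : IsPModular p M) {v : G}
    (hv : IsPGroup p (Subgroup.zpowers v))
    {l : GA (locRing hM) G} (hfix : FixBy (Subgroup.zpowers v) l) (hl : l * l = l)
    (hbr : br (Subgroup.zpowers v) (redO hM l) = 0) (g : G) :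
    ∑ x : G, ((l (v⁻¹ * (x * g * x⁻¹)) : locRing hM) : ℂ) = 0 := by
  classical
  have hp : p.Prime := Fact.out
  have hvm : v ∈ Subgroup.zpowers v := Subgroup.mem_zpowers v
  obtain ⟨k, hk0⟩ := hv ⟨v, hvm⟩
  have hk : v ^ (p ^ k) = 1 := by
    have := congrArg Subtype.val hk0
    simpa using this
  set σ : Equiv.Perm G := sg v g with hσdef
  set Φ : Matrix G G ℂ := fun x' x => ((l (x' * x⁻¹) : locRing hM) : ℂ) with hΦ
  set F : G → Prop := fun x => ∃ n : ℤ, ¬ (p : ℤ) ∣ n ∧ (σ ^ n) x = x with hFdef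
  have key := sum_perm_idem_eq_zero_of_small hM σ F ?_ ?_ Φ ?_ ?_ ?_ ?_
  · rw [← key]
    refine Finset.sum_congr rfl (fun x _ => ?_)
    show _ = ((l (x * (σ x)⁻¹) : locRing hM) : ℂ)
    rw [hσdef, sg_apply, ← hfix.apply hvm (v⁻¹ * (x * g * x⁻¹))]
    congr 2
    group
  · intro x
    constructor
    · rintro ⟨n, hn, h⟩
      refine ⟨n, hn, ?_⟩
      apply σ.injective
      have : σ ((σ ^ n) x) = (σ ^ n) (σ x) := by
        rw [← Equiv.Perm.mul_apply, ← Equiv.Perm.mul_apply, ← zpow_one_add, ← zpow_add_one,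
          add_comm]
      rw [this, h]
    · rintro ⟨n, hn, h⟩
      refine ⟨n, hn, ?_⟩
      have : σ ((σ ^ n) x) = (σ ^ n) (σ x) := by
        rw [← Equiv.Perm.mul_apply, ← Equiv.Perm.mul_apply, ← zpow_one_add, ← zpow_add_one,
          add_comm]
      rw [← this, h]
  · intro x hx i hi
    by_contra hni
    exact hx ⟨i, hni, hi⟩
  · intro i j
    exact (l (i * j⁻¹)).2
  · ext x' x
    rw [Matrix.mul_apply]
    show _ = ((l (x' * x⁻¹) : locRing hM) : ℂ)
    conv_rhs => rw [← hl, GA.mul_apply]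
    push_cast
    refine (Fintype.sum_equiv ((Equiv.inv G).trans (Equiv.mulLeft x')) _ _ (fun y => ?_))
    show ((l (x' * y⁻¹) : locRing hM) : ℂ) * ((l (y * x⁻¹) : locRing hM) : ℂ) = _
    simp only [Equiv.trans_apply, Equiv.inv_apply, Equiv.coe_mulLeft]
    congr 3
    group
  · intro i j
    show ((l (σ i * (σ j)⁻¹) : locRing hM) : ℂ) = ((l (i * j⁻¹) : locRing hM) : ℂ)
    rw [hσdef, sg_apply, sg_apply, ← hfix.apply hvm (i * j⁻¹)]
    congr 2
    group
  · rintro i j ⟨n, hn, hi⟩ ⟨n', hn', hj⟩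
    have hpi : Prime (p : ℤ) := Nat.prime_iff_prime_int.1 hp
    have hm : ¬ (p : ℤ) ∣ n * n' := by
      intro h
      rcases hpi.dvd_or_dvd h with h | h
      · exact hn h
      · exact hn' h
    obtain ⟨c, hc⟩ := exists_zpow_eq hp hk hm
    have h1 := (semiconj_of_fix hi).zpow_right (n' * c)
    have h2 := (semiconj_of_fix hj).zpow_right (n * c)
    rw [← zpow_mul, ← zpow_mul, ← mul_assoc, hc] at h1
    rw [← zpow_mul, ← zpow_mul, ← mul_assoc, mul_comm n' n, hc] at h2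
    have h1' : i * g ^ (n * n' * c) = v * i := h1
    have h2' : j * g ^ (n * n' * c) = v * j := h2
    have hcomm : v * (i * j⁻¹) = (i * j⁻¹) * v := by
      have e : g ^ (n * n' * c) = j⁻¹ * v * j := by
        rw [mul_assoc j⁻¹, ← h2']; group
      rw [e] at h1'
      calc v * (i * j⁻¹) = (v * i) * j⁻¹ := by group
        _ = (i * (j⁻¹ * v * j)) * j⁻¹ := by rw [h1']
        _ = (i * j⁻¹) * v := by group
    have hmem : i * j⁻¹ ∈ Cn (Subgroup.zpowers v) := by
      rw [mem_Cn]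
      intro u hu
      obtain ⟨t, rfl⟩ := Subgroup.mem_zpowers_iff.1 hu
      exact ((show Commute v (i * j⁻¹) from hcomm).zpow_left t)
    have h3 : br (Subgroup.zpowers v) (redO hM l) (i * j⁻¹) = 0 := by rw [hbr]; rfl
    rw [br_apply_mem _ hmem, redO_apply, resR_eq_zero_iff] at h3
    exact h3

theorem ev_eq_zero_of_br (hM : IsPModular p M) {v : G} (hv : IsPGroup p (Subgroup.zpowers v))
    {l : GA (locRing hM) G} (hfix : FixBy (Subgroup.zpowers v) l) (hl : l * l = l)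
    (hbr : br (Subgroup.zpowers v) (redO hM l) = 0) (τ : G → ℂ) (hτ : IsClassFunction G τ) :
    ev hM τ (of v * l) = 0 := by
  classical
  have hcard : (Fintype.card G : ℂ) ≠ 0 := by
    exact_mod_cast Fintype.card_ne_zero
  have h1 : ∀ x : G, ev hM τ (of v * l)
      = ∑ g : G, ((l (v⁻¹ * (x * g * x⁻¹)) : locRing hM) : ℂ) * τ g := by
    intro x
    unfold ev
    refine (Fintype.sum_equiv (MulAut.conj x).toEquiv _ _ (fun g => ?_)).symm
    simp only [MulEquiv.toEquiv_eq_coe, EquivLike.coe_coe, MulAut.conj_apply]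
    rw [GA.of_mul_apply, hτ]
  have h2 : (Fintype.card G : ℂ) * ev hM τ (of v * l) = 0 := by
    calc (Fintype.card G : ℂ) * ev hM τ (of v * l)
        = ∑ _x : G, ev hM τ (of v * l) := by
          rw [Finset.sum_const, Finset.card_univ, nsmul_eq_mul]
      _ = ∑ x : G, ∑ g : G, ((l (v⁻¹ * (x * g * x⁻¹)) : locRing hM) : ℂ) * τ g :=
          Finset.sum_congr rfl (fun x _ => h1 x)
      _ = ∑ g : G, (∑ x : G, ((l (v⁻¹ * (x * g * x⁻¹)) : locRing hM) : ℂ)) * τ g := by
          rw [Finset.sum_comm]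
          exact Finset.sum_congr rfl (fun g _ => by rw [Finset.sum_mul])
      _ = 0 := by
          refine Finset.sum_eq_zero (fun g _ => ?_)
          rw [sum_conj_eq_zero_of_br hM hv hfix hl hbr g, zero_mul]
  exact (mul_eq_zero.1 h2).resolve_left hcard

end Cfsg.Agent.Lib.Helper83.Star
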