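import Mathlib
import Cfsg.Agent.Lib.Helper83.Star.Base
import Cfsg.Agent.Lib.Helper83.Star.V
import Cfsg.Agent.Lib.Helper83.Star.LDI

set_option autoImplicit false
set_option linter.unusedSectionVars false

namespace Cfsg.Agent.Lib.Helper83.Star

open scoped BigOperators
open Cfsg Cfsg.Agent.Lib.Helper80 Cfsg.Agent.Lib.Helper80.GA Cfsg.Agent.Lib.Helper81

variable {p : ℕ} [Fact p.Prime] {M : Ideal AlgInt} {G : Type*} [Group G] [Fintype G]

theorem ev_eq_of_br_eq (hM : IsPModular p M) {v : G} (hv : IsPGroup p (Subgroup.zpowers v))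
    {i j : GA (locRing hM) G} (hif : FixBy (Subgroup.zpowers v) i) (hi : i * i = i)
    (hjf : FixBy (Subgroup.zpowers v) j) (hj : j * j = j)
    (h : br (Subgroup.zpowers v) (redO hM i) = br (Subgroup.zpowers v) (redO hM j))
    (τ : G → ℂ) (hτ : IsClassFunction G τ) :
    ev hM τ (of v * i) = ev hM τ (of v * j) := by
  set P : Subgroup G := Subgroup.zpowers v with hP
  obtain ⟨D, hDS, hDsm⟩ := exists_ldO hM (⊤ : Subgroup G) P
  have hmem : ∀ a : GA (locRing hM) G, a ∈ D.S ↔ FixBy P a := by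
    intro a
    rw [hDS, mem_sfRing]
    exact ⟨fun h => h.2, fun h => ⟨fun g hg => absurd (Subgroup.mem_top g) hg, h⟩⟩
  obtain ⟨K, hKd⟩ : ∃ K : GA (locRing hM) G → Prop,
      ∀ a, K a ↔ (FixBy P (redO hM a) ∧ br P (redO hM a) = 0) := ⟨_, fun _ => Iff.rfl⟩
  have K_add : ∀ {a b : GA (locRing hM) G}, K a → K b → K (a + b) := by
    intro a b ha hb
    rw [hKd] at ha hb ⊢
    refine ⟨?_, ?_⟩
    · rw [map_add]; exact ha.1.add hb.1
    · rw [map_add, br_add, ha.2, hb.2, add_zero]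
  have K_neg : ∀ {a : GA (locRing hM) G}, K a → K (-a) := by
    intro a ha
    rw [hKd] at ha ⊢
    refine ⟨?_, ?_⟩
    · rw [map_neg, ← zero_sub]; exact FixBy.zero.sub ha.1
    · rw [map_neg, ← zero_sub, br_sub, br_zero, ha.2, sub_zero]
  have K_left : ∀ {a b : GA (locRing hM) G}, b ∈ D.S → K a → K (b * a) := by
    intro a b hb ha
    have hb' : FixBy P (redO hM b) := fixBy_redO hM ((hmem b).1 hb)
    rw [hKd] at ha ⊢
    refine ⟨?_, ?_⟩
    · rw [map_mul]; exact hb'.mul ha.1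
    · rw [map_mul, br_mul hv hb' ha.1, ha.2, mul_zero]
  have K_right : ∀ {a b : GA (locRing hM) G}, b ∈ D.S → K a → K (a * b) := by
    intro a b hb ha
    have hb' : FixBy P (redO hM b) := fixBy_redO hM ((hmem b).1 hb)
    rw [hKd] at ha ⊢
    refine ⟨?_, ?_⟩
    · rw [map_mul]; exact ha.1.mul hb'
    · rw [map_mul, br_mul hv ha.1 hb', ha.2, zero_mul]
  have K_sm : ∀ {a : GA (locRing hM) G}, D.sm a → K a := by
    intro a ha
    have h0 : redO hM a = 0 := (hDsm a).1 ha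
    rw [hKd]
    refine ⟨?_, ?_⟩
    · rw [h0]; exact FixBy.zero
    · rw [h0, br_zero]
  have hK : K (i - j) := by
    rw [hKd]
    refine ⟨?_, ?_⟩
    · rw [map_sub]; exact (fixBy_redO hM hif).sub (fixBy_redO hM hjf)
    · rw [map_sub, br_sub, h, sub_self]
  obtain ⟨j₁, j₂, i₁, i₂, a, b, -, hj₂S, -, hi₂S, -, hbS, hjd, hid, hj₂, hi₂, hj₁, hi₁, hKj, hKi⟩ :=
    LD.equiv_mod (D := D) (K := K) K_add K_neg K_left K_right K_sm ((hmem i).2 hif) ((hmem j).2 hjf) hi hj hK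
  have hvP : v ∈ P := Subgroup.mem_zpowers v
  have e1 : ev hM τ (of v * j₂) = 0 :=
    ev_eq_zero_of_br hM hv ((hmem j₂).1 hj₂S) hj₂ ((hKd _).1 hKj).2 τ hτ
  have e2 : ev hM τ (of v * i₂) = 0 :=
    ev_eq_zero_of_br hM hv ((hmem i₂).1 hi₂S) hi₂ ((hKd _).1 hKi).2 τ hτ
  have hvb : of v * b = b * of v := (cj_eq_iff_commute v b).1 ((hmem b).1 hbS v hvP)
  have e3 : ev hM τ (of v * (a * b)) = ev hM τ (of v * (b * a)) := by
    rw [← mul_assoc, ev_mul_comm hM τ hτ, ← mul_assoc, ← hvb, mul_assoc]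
  rw [hid, hjd, mul_add, mul_add, ev_add, ev_add, e1, e2, hi₁, hj₁, e3]

end Cfsg.Agent.Lib.Helper83.Star
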