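import Mathlib
import Cfsg.Agent.Lib.Helper83.Star.Base
import Cfsg.Agent.Lib.Helper3.PGroup

set_option autoImplicit false
set_option linter.unusedSectionVars false

namespace Cfsg.Agent.Lib.Helper83.Star

open scoped BigOperators
open Cfsg Cfsg.Agent.Lib.Helper80 Cfsg.Agent.Lib.Helper80.GA Cfsg.Agent.Lib.Helper81

variable {p : ℕ} [Fact p.Prime] {M : Ideal AlgInt} {G : Type*} [Group G] [Fintype G]

theorem exists_index_p {Q S : Subgroup G} (hQ : IsPGroup p Q) (hS : S < Q) :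
    ∃ T : Subgroup G, S ≤ T ∧ T ≤ Q ∧ Q ≤ Nn T ∧ T.relIndex Q = p := by
  have hne : S.subgroupOf Q ≠ ⊤ := by
    intro h
    rw [Subgroup.subgroupOf_eq_top] at h
    exact absurd h (not_le_of_gt hS)
  obtain ⟨T', hT', hST'⟩ := (eq_top_or_exists_le_coatom (S.subgroupOf Q)).resolve_left hne
  have hn : T'.Normal := Cfsg.Agent.Lib.Helper3.coatom_normal hQ hT'
  have hi : T'.index = p := Cfsg.Agent.Lib.Helper3.coatom_index hQ hT'
  have hsub : (T'.map Q.subtype).subgroupOf Q = T' :=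
    Subgroup.comap_map_eq_self_of_injective Q.subtype_injective T'
  refine ⟨T'.map Q.subtype, ?_, Subgroup.map_subtype_le T', ?_, ?_⟩
  · intro s hs
    exact ⟨⟨s, hS.le hs⟩, hST' (Subgroup.mem_subgroupOf.mpr hs), rfl⟩
  · rw [← Subgroup.normal_subgroupOf_iff_le_normalizer (Subgroup.map_subtype_le T'), hsub]
    exact hn
  · rw [Subgroup.relIndex, hsub, hi]

theorem index_p_coset {Q T : Subgroup G} (hTQ : T ≤ Q) (hN : Q ≤ Nn T)
    (hidx : T.relIndex Q = p) {x : G} (hx : x ∈ Q) (hxT : x ∉ T) :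
    x ^ p ∈ T ∧ (∀ q ∈ Q, ∃ i < p, (x ^ i)⁻¹ * q ∈ T) ∧ (∀ i, 0 < i → i < p → x ^ i ∉ T) := by
  classical
  have hn : (T.subgroupOf Q).Normal := (Subgroup.normal_subgroupOf_iff_le_normalizer hTQ).mpr hN
  have hcard : Nat.card (Q ⧸ T.subgroupOf Q) = p := hidx
  set xb : Q ⧸ T.subgroupOf Q := QuotientGroup.mk ⟨x, hx⟩ with hxb
  have hmem : ∀ (y : G) (hy : y ∈ Q), (QuotientGroup.mk ⟨y, hy⟩ : Q ⧸ T.subgroupOf Q) = 1 ↔ y ∈ T := by
    intro y hy
    rw [QuotientGroup.eq_one_iff, Subgroup.mem_subgroupOf]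
  have hx1 : xb ≠ 1 := fun h => hxT ((hmem x hx).mp h)
  have hxp : xb ^ p = 1 := by rw [← hcard]; exact pow_card_eq_one'
  have hord : orderOf xb = p := orderOf_eq_prime hxp hx1
  have hpow : ∀ i : ℕ, xb ^ i = QuotientGroup.mk ⟨x ^ i, Q.pow_mem hx i⟩ := fun i => rfl
  refine ⟨?_, ?_, ?_⟩
  · rw [← hmem _ (Q.pow_mem hx p), ← hpow]
    exact hxp
  · intro q hq
    have htop : Subgroup.zpowers xb = ⊤ := zpowers_eq_top_of_prime_card hcard hx1
    have h1 : (QuotientGroup.mk ⟨q, hq⟩ : Q ⧸ T.subgroupOf Q) ∈ Subgroup.zpowers xb := by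
      rw [htop]; trivial
    rw [← mem_powers_iff_mem_zpowers, mem_powers_iff_mem_range_orderOf, hord] at h1
    obtain ⟨i, hi, hiq⟩ := Finset.mem_image.mp h1
    refine ⟨i, Finset.mem_range.mp hi, ?_⟩
    rw [← hmem _ (Q.mul_mem (Q.inv_mem (Q.pow_mem hx i)) hq)]
    have : (QuotientGroup.mk ⟨(x ^ i)⁻¹ * q, Q.mul_mem (Q.inv_mem (Q.pow_mem hx i)) hq⟩ :
        Q ⧸ T.subgroupOf Q) = (xb ^ i)⁻¹ * QuotientGroup.mk ⟨q, hq⟩ := rfl
    rw [this, ← hiq]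
    simp
  · intro i hi0 hip h
    rw [← hmem _ (Q.pow_mem hx i), ← hpow] at h
    exact pow_ne_one_of_lt_orderOf hi0.ne' (hord ▸ hip) h

end Cfsg.Agent.Lib.Helper83.Star
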