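import Mathlib
import Cfsg.Agent.Lib.Helper83.Star.Base
import Cfsg.Agent.Lib.Helper83.Star.MAXSUB
import Cfsg.Agent.Lib.Helper82.StarGreenK

set_option autoImplicit false
set_option linter.unusedSectionVars false

namespace Cfsg.Agent.Lib.Helper83.Star

open scoped BigOperators
open Cfsg Cfsg.Agent.Lib.Helper80 Cfsg.Agent.Lib.Helper80.GA Cfsg.Agent.Lib.Helper81

variable {p : ℕ} [Fact p.Prime] {M : Ideal AlgInt} {G : Type*} [Group G] [Fintype G]

section aux
variable {k : Type*} [Field k]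

/-- conjugation by `x` as an algebra automorphism of the group algebra -/
noncomputable def ggaCjEquiv (x : G) : GA k G ≃ₐ[k] GA k G where
  toFun := cj x
  invFun := cj x⁻¹
  left_inv := cj_inv_cj x
  right_inv := cj_cj_inv x
  map_mul' := cj_mul x
  map_add' := cj_add x
  commutes' := fun r => by rw [Algebra.algebraMap_eq_smul_one, cj_smul, cj_one]

theorem ggaCjEquiv_apply (x : G) (a : GA k G) : ggaCjEquiv x a = cj x a := rfl

theorem ggaCjEquiv_iterate (x : G) (i : ℕ) (a : GA k G) : ((ggaCjEquiv x)^[i]) a = cj (x ^ i) a := by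
  induction i with
  | zero => simp [one_cj]
  | succ i ih => rw [Function.iterate_succ_apply', ih, ggaCjEquiv_apply, cj_cj, pow_succ']

/-- the subalgebra of `T`-fixed points -/
def ggaFixSub (T : Subgroup G) : Subalgebra k (GA k G) where
  carrier := {a | FixBy T a}
  mul_mem' := fun ha hb => FixBy.mul ha hb
  add_mem' := fun ha hb => FixBy.add ha hb
  algebraMap_mem' := fun r => by
    rw [Algebra.algebraMap_eq_smul_one]
    exact FixBy.smul r FixBy.one

theorem mem_ggaFixSub {T : Subgroup G} {a : GA k G} : a ∈ (ggaFixSub T : Subalgebra k (GA k G)) ↔ FixBy T a :=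
  Iff.rfl

/-- conjugacy under a subgroup -/
def ggaConjSetoid (Q : Subgroup G) : Setoid G where
  r g g' := ∃ q ∈ Q, g' = q * g * q⁻¹
  iseqv := ⟨fun g => ⟨1, Q.one_mem, by simp⟩,
    fun {_ _} ⟨q, hq, h⟩ => ⟨q⁻¹, Q.inv_mem hq, by rw [h]; group⟩,
    fun {_ _ _} ⟨q, hq, h⟩ ⟨q', hq', h'⟩ => ⟨q' * q, Q.mul_mem hq' hq, by rw [h', h]; group⟩⟩

/-- a representative of the `Q`-class -/
noncomputable def ggaRep (Q : Subgroup G) (g : G) : G := (Quotient.mk (ggaConjSetoid Q) g).out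

theorem ggaRep_spec (Q : Subgroup G) (g : G) : ∃ q ∈ Q, g = q * ggaRep Q g * q⁻¹ :=
  Quotient.mk_out (s := ggaConjSetoid Q) g

theorem ggaRep_conj {Q : Subgroup G} {q : G} (hq : q ∈ Q) (g : G) :
    ggaRep Q (q * g * q⁻¹) = ggaRep Q g := by
  unfold ggaRep
  congr 1
  exact (Quotient.sound (s := ggaConjSetoid Q) ⟨q, hq, rfl⟩).symm

end aux

theorem green_ga {k : Type*} [Field k] [IsAlgClosed k] [CharP k p] {Q T : Subgroup G}
    {j : GA k G} (hj : Prim Q j) (hj0 : j ≠ 0) (hTQ : T ≤ Q) (hN : Q ≤ Nn T)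
    (hidx : T.relIndex Q = p)
    (hsupp : ∀ g, j g ≠ 0 → ∀ u ∈ Q, u * g = g * u → u ∈ T) {x : G} (hx : x ∈ Q) (hxT : x ∉ T) :
    ∃ l : GA k G, FixBy T l ∧ l * l = l ∧ j * l = l ∧ l * j = l ∧
      (∀ i, 0 < i → i < p → l * cj (x ^ i) l = 0) ∧ ∑ i ∈ Finset.range p, cj (x ^ i) l = j := by
  classical
  obtain ⟨hxp, hcos, hpow⟩ := index_p_coset hTQ hN hidx hx hxT
  obtain ⟨hjQ, hjj, hjprim⟩ := hj
  have hxi : ∀ i : ℕ, x ^ i ∈ Q := fun i => Q.pow_mem hx i
  -- the section
  obtain ⟨c, hc⟩ : ∃ c : GA k G, ∀ g, c g = if (∃ t ∈ T, g = t * ggaRep Q g * t⁻¹) then j g else 0 :=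
    ⟨fun g => if (∃ t ∈ T, g = t * ggaRep Q g * t⁻¹) then j g else 0, fun _ => rfl⟩
  have hcT : FixBy T c := by
    rw [fixBy_iff]
    intro s hs g
    rw [hc, hc, ggaRep_conj (hTQ hs), hjQ.apply (hTQ hs)]
    generalize ggaRep Q g = r
    congr 1
    rw [eq_iff_iff]
    constructor
    · rintro ⟨t, ht, h⟩
      refine ⟨s⁻¹ * t, T.mul_mem (T.inv_mem hs) ht, ?_⟩
      have : g = s⁻¹ * (s * g * s⁻¹) * s := by group
      rw [this, h]; group
    · rintro ⟨t, ht, h⟩
      refine ⟨s * t, T.mul_mem hs ht, ?_⟩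
      rw [h]
      group
  have hTr : ∑ i ∈ Finset.range p, cj (x ^ i) c = j := by
    ext g
    rw [GA.sum_apply]
    have hterm : ∀ i : ℕ, cj (x ^ i) c g
        = if (∃ t ∈ T, (x ^ i)⁻¹ * g * x ^ i = t * ggaRep Q g * t⁻¹) then j g else 0 := by
      intro i
      rw [cj_apply, hc, hjQ.apply' (hxi i)]
      have : ggaRep Q ((x ^ i)⁻¹ * g * x ^ i) = ggaRep Q g := by
        have := ggaRep_conj (Q.inv_mem (hxi i)) g
        rwa [inv_inv] at this
      rw [this]
    simp only [hterm]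
    by_cases hg : j g = 0
    · simp [hg]
    · obtain ⟨q, hq, hgq⟩ := ggaRep_spec Q g
      generalize ggaRep Q g = r at hgq ⊢
      obtain ⟨i₀, hi₀, hi₀T⟩ := hcos q hq
      have hrep : j r ≠ 0 := by
        intro h
        apply hg
        rw [hgq, hjQ.apply hq, h]
      rw [Finset.sum_eq_single i₀]
      · rw [if_pos]
        refine ⟨(x ^ i₀)⁻¹ * q, hi₀T, ?_⟩
        rw [hgq]
        group
      · intro i hi hne
        rw [if_neg]
        rintro ⟨t, ht, h⟩
        have h2 : (q⁻¹ * (x ^ i * t)) * r = r * (q⁻¹ * (x ^ i * t)) := by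
          have h3 : (x ^ i)⁻¹ * (q * r * q⁻¹) * x ^ i = t * r * t⁻¹ := by rw [← hgq]; exact h
          have h4 : q⁻¹ * x ^ i * ((x ^ i)⁻¹ * (q * r * q⁻¹) * x ^ i) * t
              = q⁻¹ * x ^ i * (t * r * t⁻¹) * t := by rw [h3]
          have h5 : q⁻¹ * x ^ i * ((x ^ i)⁻¹ * (q * r * q⁻¹) * x ^ i) * t
              = r * (q⁻¹ * (x ^ i * t)) := by group
          have h6 : q⁻¹ * x ^ i * (t * r * t⁻¹) * t = (q⁻¹ * (x ^ i * t)) * r := by group
          rw [h5, h6] at h4
          exact h4.symm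
        have h7 : q⁻¹ * (x ^ i * t) ∈ T :=
          hsupp _ hrep _ (Q.mul_mem (Q.inv_mem hq) (Q.mul_mem (hxi i) (hTQ ht))) h2
        have h8 : (x ^ i₀)⁻¹ * x ^ i ∈ T := by
          have : (x ^ i₀)⁻¹ * x ^ i = ((x ^ i₀)⁻¹ * q) * (q⁻¹ * (x ^ i * t)) * t⁻¹ := by group
          rw [this]
          exact T.mul_mem (T.mul_mem hi₀T h7) (T.inv_mem ht)
        have hi' := Finset.mem_range.1 hi
        rcases lt_or_gt_of_ne hne with hlt | hgt
        · have : x ^ (i₀ - i) ∈ T := by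
            have e : x ^ (i₀ - i) = ((x ^ i₀)⁻¹ * x ^ i)⁻¹ := by
              obtain ⟨d, rfl⟩ := Nat.exists_eq_add_of_lt hlt
              have : i + d + 1 - i = d + 1 := by omega
              rw [this, pow_add, pow_add]
              group
            rw [e]; exact T.inv_mem h8
          exact hpow _ (by omega) (by omega) this
        · have : x ^ (i - i₀) ∈ T := by
            have e : x ^ (i - i₀) = (x ^ i₀)⁻¹ * x ^ i := by
              obtain ⟨d, rfl⟩ := Nat.exists_eq_add_of_lt hgt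
              have : i₀ + d + 1 - i₀ = d + 1 := by omega
              rw [this, pow_add, pow_add]
              group
            rw [e]; exact h8
          exact hpow _ (by omega) (by omega) this
      · intro h; exact absurd (Finset.mem_range.2 hi₀) h
  -- apply Green
  have hS : ∀ a ∈ (ggaFixSub T : Subalgebra k (GA k G)), ggaCjEquiv x a ∈ (ggaFixSub T : Subalgebra k (GA k G)) := by
    intro a ha
    have := FixBy.cj (mem_ggaFixSub.1 ha) x
    rw [cS_eq_self_of_mem_Nn (hN hx)] at this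
    exact this
  have hσ : ∀ a ∈ (ggaFixSub T : Subalgebra k (GA k G)), ((ggaCjEquiv x)^[p]) a = a := by
    intro a ha
    rw [ggaCjEquiv_iterate]
    exact (mem_ggaFixSub.1 ha) _ hxp
  have hfixQ : ∀ e : GA k G, FixBy T e → cj x e = e → FixBy Q e := by
    intro e he hxe q hq
    obtain ⟨i, _, hi⟩ := hcos q hq
    have h1 : ∀ n : ℕ, cj (x ^ n) e = e := by
      intro n
      induction n with
      | zero => simp [one_cj]
      | succ n ih => rw [pow_succ', ← cj_cj, ih, hxe]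
    have h2 : q = x ^ i * ((x ^ i)⁻¹ * q) := by group
    rw [h2, ← cj_cj, he _ hi, h1]
  obtain ⟨l, hlS, hll, hjl, hlj, horth, hsum⟩ :=
    Cfsg.Agent.Lib.Helper82.green_rel p (ggaFixSub T : Subalgebra k (GA k G)) (ggaCjEquiv x) hS hσ j
      (mem_ggaFixSub.2 (hjQ.mono hTQ)) hjj hj0 (hjQ x hx) c (mem_ggaFixSub.2 hcT)
      (by simpa only [ggaCjEquiv_iterate] using hTr)
      (fun e he hee hxe hje hej => hjprim e (hfixQ e (mem_ggaFixSub.1 he) hxe) hee hje hej)
  refine ⟨l, mem_ggaFixSub.1 hlS, hll, hjl, hlj, ?_, ?_⟩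
  · intro i hi0 hip
    have := horth i hi0 hip
    rwa [ggaCjEquiv_iterate] at this
  · simpa only [ggaCjEquiv_iterate] using hsum

end Cfsg.Agent.Lib.Helper83.Star
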