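import Mathlib
import Cfsg.Agent.Lib.Helper83.Star.Base

set_option autoImplicit false
set_option linter.unusedSectionVars false

namespace Cfsg.Agent.Lib.Helper83.Star

open scoped BigOperators
open Cfsg Cfsg.Agent.Lib.Helper80 Cfsg.Agent.Lib.Helper80.GA Cfsg.Agent.Lib.Helper81

variable {p : ℕ} [Fact p.Prime] {M : Ideal AlgInt} {G : Type*} [Group G] [Fintype G]

def HubStmt (hM : IsPModular p M) (G : Type*) [Group G] [Fintype G] : Prop :=
  ∀ (χ θ : G → ℂ) (L : G → GA (Kr hM) G → ℂ), IsCharacter G χ → IsClassFunction G θ →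
    (∀ v : G, IsPGroup p (Subgroup.zpowers v) → ∀ bh : GA (locRing hM) G,
      SuppOn (Cn (Subgroup.zpowers v)) bh → FixBy (Cn (Subgroup.zpowers v)) bh → bh * bh = bh →
      IsBlk (Cn (Subgroup.zpowers v)) (redO hM bh) →
      ∀ s ∈ Cn (Subgroup.zpowers v), IsPRegular p s →
        ev hM θ (of (v * s) * bh) = L v (redO hM bh) * ev hM χ (of (v * s) * bh)) →
    (∀ (Q : Subgroup G) (f : GA (Kr hM) G), IsBP p Q f → ∀ β : Q → GA (Kr hM) G,
      (∀ v : Q, BPLE p (Subgroup.zpowers (v : G), β v) (Q, f)) →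
      IsGeneralizedCharacter Q (fun v : Q => L (v : G) (β v))) →
    IsGeneralizedCharacter G θ

end Cfsg.Agent.Lib.Helper83.Star
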