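import Mathlib
import Cfsg.Agent.Lib.Helper83.Star.Base
import Cfsg.Agent.Lib.Helper83.Star.CLA
import Cfsg.Agent.Lib.Helper83.Star.V
import Cfsg.Agent.Lib.Helper83.Star.LDI
import Cfsg.Agent.Lib.Helper83.Star.MAXSUB

set_option autoImplicit false
set_option linter.unusedSectionVars false

namespace Cfsg.Agent.Lib.Helper83.Star

open scoped BigOperators
open Cfsg Cfsg.Agent.Lib.Helper80 Cfsg.Agent.Lib.Helper80.GA Cfsg.Agent.Lib.Helper81

variable {p : ℕ} [Fact p.Prime] {M : Ideal AlgInt} {G : Type*} [Group G] [Fintype G]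

theorem ind1_cj_of {R : Type*} [CommRing R] (x y : G) :
    cj x (of y : GA R G) = of (x * y * x⁻¹) := by
  unfold cj
  rw [GA.of_mul_of, GA.of_mul_of]

theorem ind1_extendByZero_mem {H : Subgroup G} (f : H → ℂ) {g : G} (hg : g ∈ H) :
    extendByZero H f g = f ⟨g, hg⟩ := by
  unfold extendByZero
  exact Subtype.val_injective.extend_apply f 0 ⟨g, hg⟩

theorem ind1_extendByZero_not_mem {H : Subgroup G} (f : H → ℂ) {g : G} (hg : g ∉ H) :
    extendByZero H f g = 0 := by
  unfold extendByZero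
  rw [Function.extend_apply']
  · rfl
  · rintro ⟨a, rfl⟩
    exact hg a.2

/-- the inductive claim `S(m)` -/
theorem ind1_claim (hM : IsPModular p M) {θ : G → ℂ} (hθ : IsClassFunction G θ)
    {T : Subgroup G} {u : G} (huT : u ∈ T) (hup : IsPGroup p (Subgroup.zpowers u))
    (L : ℕ → GA (locRing hM) G) (hLf : ∀ i, FixBy T (L i)) (hLi : ∀ i, L i * L i = L i)
    (n : ℕ) (horth : ∀ a b, a < n → b < n → a ≠ b → redO hM (L a) * redO hM (L b) = 0) :
    ∀ m, m ≤ n → ∀ e : GA (locRing hM) G, FixBy T e → e * e = e →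
      redO hM e = ∑ i ∈ Finset.range m, redO hM (L i) →
      ev hM θ (of u * e) = ∑ i ∈ Finset.range m, ev hM θ (of u * L i) := by
  have hzT : Subgroup.zpowers u ≤ T := (Subgroup.zpowers_le).2 huT
  intro m
  induction m with
  | zero =>
    intro _ e hef he hred
    rw [Finset.sum_range_zero] at hred ⊢
    have h := ev_eq_of_br_eq hM hup (hef.mono hzT) he (FixBy.zero (H := Subgroup.zpowers u))
      (mul_zero (0 : GA (locRing hM) G)) (by rw [hred, map_zero]) θ hθ
    rw [h, mul_zero, ev_zero]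
  | succ m ih =>
    intro hmn e hef he hred
    have hm : m < n := hmn
    have hLm : redO hM (L m) * redO hM (L m) = redO hM (L m) := by rw [← map_mul, hLi]
    have h1 : redO hM e * redO hM (L m) = redO hM (L m) := by
      rw [hred, Finset.sum_range_succ, add_mul, Finset.sum_mul, hLm,
        Finset.sum_eq_zero, zero_add]
      intro i hi
      have him : i < m := Finset.mem_range.1 hi
      exact horth i m (him.trans hm) hm him.ne
    have h2 : redO hM (L m) * redO hM e = redO hM (L m) := by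
      rw [hred, Finset.sum_range_succ, mul_add, Finset.mul_sum, hLm,
        Finset.sum_eq_zero, zero_add]
      intro i hi
      have him : i < m := Finset.mem_range.1 hi
      exact horth m i hm (him.trans hm) him.ne'
    obtain ⟨l', -, hl'F, hl'i, hel', hl'e, hl'red⟩ :=
      lift_idem_corner hM (⊤ : Subgroup G) T (fun g hg => absurd (Subgroup.mem_top g) hg) hef he
        (fun g hg => absurd (Subgroup.mem_top g) hg) (fixBy_redO hM (hLf m)) hLm h1 h2
    have he' : (e - l') * (e - l') = e - l' := by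
      rw [sub_mul, mul_sub, mul_sub, he, hel', hl'e, hl'i]; abel
    have hred' : redO hM (e - l') = ∑ i ∈ Finset.range m, redO hM (L i) := by
      rw [map_sub, hred, hl'red, Finset.sum_range_succ, add_sub_cancel_right]
    have h3 := ih hm.le (e - l') (hef.sub hl'F) he' hred'
    have h4 := ev_eq_of_br_eq hM hup (hl'F.mono hzT) hl'i ((hLf m).mono hzT) (hLi m)
      (by rw [hl'red]) θ hθ
    have h5 : of u * e = of u * (e - l') + of u * l' := by
      rw [← mul_add, sub_add_cancel]
    rw [h5, ev_add, h3, h4, Finset.sum_range_succ]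

theorem tw_eq_sum_conj (hM : IsPModular p M) {θ : G → ℂ} (hθ : IsClassFunction G θ)
    {Q T : Subgroup G} (hQ : IsPGroup p Q) (hTQ : T ≤ Q) (hN : Q ≤ Nn T) (hidx : T.relIndex Q = p)
    {x : G} (hx : x ∈ Q) (hxT : x ∉ T) {j l : GA (locRing hM) G}
    (hjf : FixBy Q j) (hj : j * j = j) (hlf : FixBy T l) (hl : l * l = l)
    (hsupp : ∀ g, redO hM j g ≠ 0 → ∀ u ∈ Q, u * g = g * u → u ∈ T)
    (horth : ∀ i, 0 < i → i < p → redO hM l * cj (x ^ i) (redO hM l) = 0)
    (hsum : ∑ i ∈ Finset.range p, cj (x ^ i) (redO hM l) = redO hM j) (u : Q) :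
    tw hM θ Q j u =
      ∑ i ∈ Finset.range p, extendByZero T (tw hM θ T l) ((x ^ i)⁻¹ * (u : G) * x ^ i) := by
  obtain ⟨hxp, -, -⟩ := index_p_coset hTQ hN hidx hx hxT
  have hzQ : Subgroup.zpowers (u : G) ≤ Q := (Subgroup.zpowers_le).2 u.2
  have hup : IsPGroup p (Subgroup.zpowers (u : G)) := hQ.to_le hzQ
  have hxi : ∀ i : ℕ, x ^ i ∈ Nn T := fun i => hN (Q.pow_mem hx i)
  have hconj : ∀ i : ℕ, ((x ^ i)⁻¹ * (u : G) * x ^ i ∈ T ↔ (u : G) ∈ T) := by
    intro i
    have h1 := (Subgroup.mem_normalizer_iff.1 (Subgroup.inv_mem _ (hxi i))) (u : G)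
    simp only [inv_inv] at h1
    exact h1.symm
  show ev hM θ (of (u : G) * j) = _
  by_cases huT : (u : G) ∈ T
  · -- the main case
    have hLf : ∀ i : ℕ, FixBy T (cj (x ^ i) l) := by
      intro i
      have := hlf.cj (x ^ i)
      rwa [cS_eq_self_of_mem_Nn (hxi i)] at this
    have hLi : ∀ i : ℕ, cj (x ^ i) l * cj (x ^ i) l = cj (x ^ i) l := by
      intro i; rw [← cj_mul, hl]
    have hlbf : FixBy T (redO hM l) := fixBy_redO hM hlf
    have horth' : ∀ a b, a < p → b < p → a ≠ b →
        redO hM (cj (x ^ a) l) * redO hM (cj (x ^ b) l) = 0 := by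
      intro a b ha hb hab
      rw [redO_cj, redO_cj]
      rcases lt_or_gt_of_ne hab with h | h
      · obtain ⟨d, rfl⟩ := Nat.exists_eq_add_of_lt h
        have h1 : x ^ (a + d + 1) = x ^ a * x ^ (d + 1) := by rw [← pow_add, add_assoc]
        rw [h1, ← cj_cj, ← cj_mul, horth (d + 1) (Nat.succ_pos d) (by omega), cj_zero]
      · -- b < a
        have h1 : cj (x ^ b) (redO hM l)
            = cj (x ^ a) (cj (x ^ (p + b - a)) (redO hM l)) := by
          have h2 : cj ((x ^ p)⁻¹) (redO hM l) = redO hM l := hlbf _ (T.inv_mem hxp)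
          conv_rhs => rw [← h2]
          rw [cj_cj, cj_cj]
          congr 1
          have h3 : x ^ a * x ^ (p + b - a) * (x ^ p)⁻¹ = x ^ b := by
            rw [← pow_add, show a + (p + b - a) = b + p by omega, pow_add,
              mul_inv_cancel_right]
          exact h3.symm
        rw [h1, ← cj_mul, horth (p + b - a) (by omega) (by omega), cj_zero]
    have hred : redO hM j = ∑ i ∈ Finset.range p, redO hM (cj (x ^ i) l) := by
      rw [← hsum]
      exact Finset.sum_congr rfl (fun i _ => (redO_cj hM _ _).symm)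
    have key := ind1_claim hM hθ huT hup (fun i => cj (x ^ i) l) hLf hLi p horth' p le_rfl j
      (hjf.mono hTQ) hj hred
    rw [key]
    refine Finset.sum_congr rfl (fun i _ => ?_)
    rw [ind1_extendByZero_mem _ ((hconj i).2 huT)]
    show _ = ev hM θ (of ((x ^ i)⁻¹ * (u : G) * x ^ i) * l)
    rw [← ev_cj hM θ hθ (x ^ i) (of ((x ^ i)⁻¹ * (u : G) * x ^ i) * l), cj_mul, ind1_cj_of]
    congr 3
    group
  · rw [Finset.sum_eq_zero (fun i _ => ind1_extendByZero_not_mem _ (fun h => huT ((hconj i).1 h)))]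
    refine ev_eq_zero_of_br hM hup (hjf.mono hzQ) hj ?_ θ hθ
    ext g
    by_cases hg : g ∈ Cn (Subgroup.zpowers (u : G))
    · rw [br_apply_mem _ hg]
      by_contra hne
      exact huT (hsupp g hne u u.2 (mem_Cn.1 hg u (Subgroup.mem_zpowers _)))
    · rw [br_apply_not_mem _ hg]; rfl

end Cfsg.Agent.Lib.Helper83.Star
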