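import Mathlib
import Cfsg.Agent.Lib.Helper83.Star.Base
import Cfsg.Agent.Lib.Helper44.Cosets
import Cfsg.Agent.Lib.Helper19.IndChar
import Cfsg.Agent.Lib.Helper4.CharBasic

set_option autoImplicit false
set_option linter.unusedSectionVars false

namespace Cfsg.Agent.Lib.Helper83.Star

open scoped BigOperators
open Cfsg Cfsg.Agent.Lib.Helper80 Cfsg.Agent.Lib.Helper80.GA Cfsg.Agent.Lib.Helper81

variable {p : ℕ} [Fact p.Prime] {M : Ideal AlgInt} {G : Type*} [Group G] [Fintype G]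

/-- powers of an element outside a normal subgroup of index `p` form a transversal -/
theorem transversal_of_index_p {Q : Type*} [Group Q] (T : Subgroup Q) [T.Normal]
    (hidx : T.index = p) {x : Q} (hxT : x ∉ T) (y : Q) :
    ∃! i : Fin p, (x ^ (i : ℕ))⁻¹ * y ∈ T := by
  have hcard : Nat.card (Q ⧸ T) = p := hidx
  have hx1 : (x : Q ⧸ T) ≠ 1 := by
    intro h
    exact hxT ((QuotientGroup.eq_one_iff x).mp h)
  have hord : orderOf (x : Q ⧸ T) = p := by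
    apply orderOf_eq_prime _ hx1
    rw [← hcard]
    exact pow_card_eq_one'
  have hp0 : 0 < p := (Fact.out : p.Prime).pos
  obtain ⟨n, hn⟩ := mem_powers_of_prime_card (g := (x : Q ⧸ T)) (g' := (y : Q ⧸ T)) hcard hx1
  have hn' : (x : Q ⧸ T) ^ n = (y : Q ⧸ T) := hn
  refine ⟨⟨n % p, Nat.mod_lt _ hp0⟩, ?_, ?_⟩
  · change (x ^ (n % p))⁻¹ * y ∈ T
    rw [← QuotientGroup.eq, QuotientGroup.mk_pow, ← hn', ← hord, pow_mod_orderOf]
  · intro i hi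
    have hi' : (x : Q ⧸ T) ^ (i : ℕ) = (y : Q ⧸ T) := by
      rw [← QuotientGroup.mk_pow]
      exact QuotientGroup.eq.mpr hi
    apply Fin.ext
    change (i : ℕ) = n % p
    apply pow_injOn_Iio_orderOf (x := (x : Q ⧸ T))
    · rw [hord]; exact i.2
    · rw [hord]; exact Nat.mod_lt _ hp0
    · change (x : Q ⧸ T) ^ (i : ℕ) = (x : Q ⧸ T) ^ (n % p)
      rw [hi', ← hn']
      conv_rhs => rw [← hord, pow_mod_orderOf]

theorem indFun_sub' {Q : Type*} [Group Q] [Fintype Q] (T : Subgroup Q) (a b : T → ℂ) :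
    indFun T (a - b) = indFun T a - indFun T b := by
  funext g
  change _ = indFun T a g - indFun T b g
  unfold indFun
  rw [← mul_sub, ← Finset.sum_sub_distrib]
  congr 1
  refine Finset.sum_congr rfl (fun x _ => ?_)
  by_cases hy : x⁻¹ * g * x ∈ T
  · rw [Cfsg.Agent.Lib.Helper44.extendByZero_mem T _ hy,
      Cfsg.Agent.Lib.Helper44.extendByZero_mem T _ hy,
      Cfsg.Agent.Lib.Helper44.extendByZero_mem T _ hy]
    rfl
  · rw [Cfsg.Agent.Lib.Helper44.extendByZero_not_mem T _ hy,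
      Cfsg.Agent.Lib.Helper44.extendByZero_not_mem T _ hy,
      Cfsg.Agent.Lib.Helper44.extendByZero_not_mem T _ hy, sub_zero]

theorem genChar_of_index_p {Q T : Subgroup G} (hTQ : T ≤ Q) (hN : Q ≤ Nn T)
    (hidx : T.relIndex Q = p) {x : G} (hx : x ∈ Q) (hxT : x ∉ T) (φ : T → ℂ)
    (hφ : IsGeneralizedCharacter T φ) (ψ : Q → ℂ)
    (h : ∀ u : Q, ψ u = ∑ i ∈ Finset.range p, extendByZero T φ ((x ^ i)⁻¹ * (u : G) * x ^ i)) :
    IsGeneralizedCharacter Q ψ := by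
  classical
  have : (T.subgroupOf Q).Normal := (Subgroup.normal_subgroupOf_iff_le_normalizer hTQ).mpr hN
  obtain ⟨χ₁, χ₂, h₁, h₂, rfl⟩ := hφ
  let f : (T.subgroupOf Q) →* T := (Subgroup.subgroupOfEquivOfLe hTQ).toMonoidHom
  have hf : ∀ t : T.subgroupOf Q, ((f t : T) : G) = ((t : Q) : G) := fun t => rfl
  have c₁ : IsCharacter (T.subgroupOf Q) (χ₁ ∘ f) := Cfsg.Agent.Lib.Helper4.isCharacter_comp_hom h₁ f
  have c₂ : IsCharacter (T.subgroupOf Q) (χ₂ ∘ f) := Cfsg.Agent.Lib.Helper4.isCharacter_comp_hom h₂ f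
  refine ⟨indFun (T.subgroupOf Q) (χ₁ ∘ f), indFun (T.subgroupOf Q) (χ₂ ∘ f),
    Cfsg.Agent.Lib.Helper19.isCharacter_indFun _ _ c₁,
    Cfsg.Agent.Lib.Helper19.isCharacter_indFun _ _ c₂, ?_⟩
  rw [← indFun_sub']
  funext u
  have hxT' : (⟨x, hx⟩ : Q) ∉ T.subgroupOf Q := fun h' => hxT (Subgroup.mem_subgroupOf.mp h')
  have hcl : ∀ a b : T.subgroupOf Q, (χ₁ ∘ f - χ₂ ∘ f) (a⁻¹ * b * a) = (χ₁ ∘ f - χ₂ ∘ f) b := by
    intro a b
    have e₁ := Cfsg.Agent.Lib.Helper4.isClassFunction_of_char c₁ b a⁻¹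
    have e₂ := Cfsg.Agent.Lib.Helper4.isClassFunction_of_char c₂ b a⁻¹
    rw [inv_inv] at e₁ e₂
    change (χ₁ ∘ f) _ - (χ₂ ∘ f) _ = (χ₁ ∘ f) _ - (χ₂ ∘ f) _
    rw [e₁, e₂]
  rw [Cfsg.Agent.Lib.Helper44.indFun_eq_of_transversal (T.subgroupOf Q)
    (fun i : Fin p => (⟨x, hx⟩ : Q) ^ (i : ℕ))
    (transversal_of_index_p (T.subgroupOf Q) hidx hxT') _ hcl u, h u,
    ← Fin.sum_univ_eq_sum_range (fun i => extendByZero T (χ₁ - χ₂) ((x ^ i)⁻¹ * (u : G) * x ^ i)) p]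
  refine Finset.sum_congr rfl (fun i _ => ?_)
  by_cases hy : (x ^ (i : ℕ))⁻¹ * (u : G) * x ^ (i : ℕ) ∈ T
  · have hy' : ((⟨x, hx⟩ : Q) ^ (i : ℕ))⁻¹ * u * (⟨x, hx⟩ : Q) ^ (i : ℕ) ∈ T.subgroupOf Q := by
      rw [Subgroup.mem_subgroupOf]
      simpa using hy
    rw [Cfsg.Agent.Lib.Helper44.extendByZero_mem T _ hy,
      Cfsg.Agent.Lib.Helper44.extendByZero_mem _ _ hy']
    change χ₁ _ - χ₂ _ = χ₁ (f _) - χ₂ (f _)
    congr 2
  · have hy' : ((⟨x, hx⟩ : Q) ^ (i : ℕ))⁻¹ * u * (⟨x, hx⟩ : Q) ^ (i : ℕ) ∉ T.subgroupOf Q := by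
      rw [Subgroup.mem_subgroupOf]
      simpa using hy
    rw [Cfsg.Agent.Lib.Helper44.extendByZero_not_mem T _ hy,
      Cfsg.Agent.Lib.Helper44.extendByZero_not_mem _ _ hy']

end Cfsg.Agent.Lib.Helper83.Star
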