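import Mathlib
import Cfsg.Agent.Lib.Helper83.Star.Base

set_option autoImplicit false
set_option linter.unusedSectionVars false

namespace Cfsg.Agent.Lib.Helper83.Star

open scoped BigOperators
open Cfsg Cfsg.Agent.Lib.Helper80 Cfsg.Agent.Lib.Helper80.GA Cfsg.Agent.Lib.Helper81

variable {p : ℕ} [Fact p.Prime] {M : Ideal AlgInt} {G : Type*} [Group G] [Fintype G]

/-- an element supported on `C_G(Q)` is fixed by `Q` -/
theorem fixBy_of_suppOn_Cn {k : Type*} [Field k] {Q : Subgroup G} {f : GA k G}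
    (hf : SuppOn (Cn Q) f) : FixBy Q f := by
  rw [fixBy_iff]
  intro x hx g
  by_cases hg : g ∈ Cn Q
  · have h1 := mem_Cn.1 hg x hx
    rw [h1, mul_inv_cancel_right]
  · rw [hf g hg]
    apply hf
    intro hc
    apply hg
    have h1 := mem_Cn.1 hc x hx
    have h2 : x * g * x⁻¹ = g := by
      have : x * (x * g * x⁻¹) = x * g := by rw [h1]; group
      exact mul_left_cancel this
    rwa [h2] at hc

/-- powers of a combination of orthogonal idempotents -/
theorem pow_orth {k A : Type*} [Field k] [Ring A] [Algebra k A] {F F' : A} (hF : F * F = F)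
    (hF' : F' * F' = F') (h1 : F * F' = 0) (h2 : F' * F = 0) (α β : k) (m : ℕ) :
    (α • F + β • F') ^ (m + 1) = α ^ (m + 1) • F + β ^ (m + 1) • F' := by
  induction m with
  | zero => simp
  | succ m ih =>
    rw [pow_succ, ih, add_mul, mul_add, mul_add, smul_mul_smul_comm, smul_mul_smul_comm,
      smul_mul_smul_comm, smul_mul_smul_comm, hF, hF', h1, h2, smul_zero, smul_zero, add_zero,
      zero_add, ← pow_succ, ← pow_succ]

theorem exists_blk_of_local {k : Type*} [Field k] [CharP k p] {Q : Subgroup G}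
    (hQ : IsPGroup p Q) {j : GA k G} (hfix : FixBy Q j) (hj : j * j = j) (hloc : LocAt Q j)
    (hbr : br Q j ≠ 0) : ∃ f, IsBlk (Cn Q) f ∧ br Q j * f = br Q j := by
  classical
  obtain ⟨E, hE⟩ : ∃ E, E = br Q j := ⟨_, rfl⟩
  have hEE : E * E = E := by rw [hE]; exact br_idem hQ hfix hj
  have hEs : SuppOn (Cn Q) E := by rw [hE]; exact br_suppOn Q j
  have hex : ∃ f ∈ blks k (Cn Q), E * f ≠ 0 := by
    by_contra hcon
    push Not at hcon
    apply hbr
    rw [← hE]
    calc E = E * 1 := (mul_one E).symm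
      _ = ∑ f ∈ blks k (Cn Q), E * f := by rw [← sum_blks (k := k) (Cn Q), Finset.mul_sum]
      _ = 0 := Finset.sum_eq_zero hcon
  obtain ⟨f, hfb, hEf0⟩ := hex
  have hf : IsBlk (Cn Q) f := mem_blks.1 hfb
  refine ⟨f, hf, ?_⟩
  rw [← hE]
  have hfQ : FixBy Q f := fixBy_of_suppOn_Cn hf.inZ.1
  have hEf : E * f = f * E := commute_of_suppOn_fixBy hEs hf.inZ.2
  obtain ⟨a, ha⟩ : ∃ a, a = j * f * j := ⟨_, rfl⟩
  have haQ : FixBy Q a := by rw [ha]; exact (hfix.mul hfQ).mul hfix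
  have hja : j * a = a := by rw [ha, ← mul_assoc, ← mul_assoc, hj]
  have haj : a * j = a := by rw [ha, mul_assoc, hj]
  obtain ⟨c, hc⟩ := hloc a haQ hja haj
  have hbra : br Q a = E * f := by
    rw [ha, br_mul hQ (hfix.mul hfQ) hfix, br_mul hQ hfix hfQ, br_eq_self hf.inZ.1, ← hE,
      mul_assoc, ← hEf, ← mul_assoc, hEE]
  obtain ⟨F, hF⟩ : ∃ F, F = E * f := ⟨_, rfl⟩
  obtain ⟨F', hF'⟩ : ∃ F', F' = E - F := ⟨_, rfl⟩
  have hEF : E * F = F := by rw [hF, ← mul_assoc, hEE]
  have hFE : F * E = F := by rw [hF, mul_assoc, ← hEf, ← mul_assoc, hEE]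
  have hFF : F * F = F := by
    rw [hF, ← mul_assoc, ← hF, hFE, hF, mul_assoc, hf.idem]
  have hFF' : F * F' = 0 := by rw [hF', mul_sub, hFE, hFF, sub_self]
  have hF'F : F' * F = 0 := by rw [hF', sub_mul, hEF, hFF, sub_self]
  have hF'F' : F' * F' = F' := by
    rw [hF', mul_sub, sub_mul, sub_mul, hEE, hFE, hEF, hFF]; abel
  obtain ⟨m, hm⟩ := hc
  have hnQ : FixBy Q (a - c • j) := haQ.sub (hfix.smul c)
  have h7 : br Q (a - c • j) ^ (m + 1) = 0 := by
    rw [← br_pow hQ hnQ, pow_succ, hm, zero_mul, br_zero]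
  have h8 : br Q (a - c • j) = (1 - c) • F + (-c) • F' := by
    rw [br_sub, hbra, br_smul, ← hE, ← hF, hF', sub_smul, one_smul, smul_sub, neg_smul, neg_smul]
    abel
  rw [h8, pow_orth hFF hF'F' hFF' hF'F] at h7
  have h9 : (1 - c) ^ (m + 1) • F = 0 := by
    have := congrArg (fun y => F * y) h7
    simp only [mul_add, mul_smul_comm, hFF, hFF', smul_zero, add_zero, mul_zero] at this
    exact this
  have hF0 : F ≠ 0 := by rw [hF]; exact hEf0
  have hc1 : 1 - c = 0 := by
    have := (smul_eq_zero.1 h9).resolve_right hF0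
    exact pow_eq_zero_iff (Nat.succ_ne_zero m) |>.1 this
  have hc1' : c = 1 := (sub_eq_zero.1 hc1).symm
  rw [hc1, zero_pow (Nat.succ_ne_zero m), zero_smul, zero_add, hc1'] at h7
  have h10 : F' = 0 :=
    (smul_eq_zero.1 h7).resolve_left (pow_ne_zero _ (neg_ne_zero.2 one_ne_zero))
  rw [hF'] at h10
  rw [← hF]
  exact (sub_eq_zero.1 h10).symm

end Cfsg.Agent.Lib.Helper83.Star
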