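import Mathlib
import Cfsg.Agent.Lib.Helper83.Star.Base
import Cfsg.Agent.Lib.Helper83.Star.MAXSUB
import Cfsg.Agent.Lib.Helper83.Star.GREENGA
import Cfsg.Agent.Lib.Helper80.GADef

set_option autoImplicit false
set_option linter.unusedSectionVars false

namespace Cfsg.Agent.Lib.Helper83.Star

open scoped BigOperators
open Cfsg Cfsg.Agent.Lib.Helper80 Cfsg.Agent.Lib.Helper80.GA Cfsg.Agent.Lib.Helper81

variable {p : ℕ} [Fact p.Prime] {M : Ideal AlgInt} {G : Type*} [Group G] [Fintype G]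

section aux
variable {k : Type*} [Field k]

/-- membership in the corner `j (kG)^Q j` -/
def nl1Cor (Q : Subgroup G) (j a : GA k G) : Prop := FixBy Q a ∧ j * a = a ∧ a * j = a

theorem nl1Cor.mul {Q : Subgroup G} {j a b : GA k G} (ha : nl1Cor Q j a) (hb : nl1Cor Q j b) :
    nl1Cor Q j (a * b) :=
  ⟨ha.1.mul hb.1, by rw [← mul_assoc, ha.2.1], by rw [mul_assoc, hb.2.2]⟩

theorem nl1Cor.add {Q : Subgroup G} {j a b : GA k G} (ha : nl1Cor Q j a) (hb : nl1Cor Q j b) :
    nl1Cor Q j (a + b) :=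
  ⟨ha.1.add hb.1, by rw [mul_add, ha.2.1, hb.2.1], by rw [add_mul, ha.2.2, hb.2.2]⟩

/-- a nilpotent corner element has no right inverse -/
theorem nl1_not_rinv {j x v : GA k G} (hj0 : j ≠ 0) (hx : IsNilpotent x) (hxj : x * j = x)
    (hxv : x * v = j) : False := by
  obtain ⟨m, hm⟩ := hx
  have key : ∀ m : ℕ, x ^ m * j * v ^ m = j := by
    intro m
    induction m with
    | zero => simp
    | succ m ih =>
      calc x ^ (m + 1) * j * v ^ (m + 1) = x ^ m * (x * j * v) * v ^ m := by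
            rw [pow_succ, pow_succ']; simp only [mul_assoc]
        _ = x ^ m * j * v ^ m := by rw [hxj, hxv]
        _ = j := ih
  apply hj0
  rw [← key m, hm, zero_mul, zero_mul]

/-- scalar plus nilpotent with nonzero scalar is a corner unit -/
theorem nl1_unit {Q : Subgroup G} {j a : GA k G} (hfix : FixBy Q j) (hj : j * j = j)
    (ha : nl1Cor Q j a) {c : k} (hc : c ≠ 0) (hn : IsNilpotent (a - c • j)) :
    ∃ w, nl1Cor Q j w ∧ a * w = j := by
  obtain ⟨m, hm⟩ := hn
  obtain ⟨t, ht⟩ : ∃ t : GA k G, t = -(c⁻¹ • (a - c • j)) := ⟨_, rfl⟩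
  have htm : t ^ m = 0 := by
    rw [ht, neg_pow, smul_pow, hm, smul_zero, mul_zero]
  have hjt : j * t = t := by
    rw [ht, mul_neg, mul_smul_comm, mul_sub, ha.2.1, mul_smul_comm, hj]
  have htj : t * j = t := by
    rw [ht, neg_mul, smul_mul_assoc, sub_mul, ha.2.2, smul_mul_assoc, hj]
  have htf : FixBy Q t := by
    rw [ht, ← neg_smul]
    exact (ha.1.sub (hfix.smul c)).smul _
  obtain ⟨s, hs⟩ : ∃ s : GA k G, s = ∑ i ∈ Finset.range m, t ^ i := ⟨_, rfl⟩
  have hsf : FixBy Q s := by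
    rw [hs, ← mem_ggaFixSub]
    exact Subalgebra.sum_mem _ (fun i _ => Subalgebra.pow_mem _ (mem_ggaFixSub.2 htf) i)
  have hcomm : Commute j t := by rw [Commute, SemiconjBy, hjt, htj]
  have hjs : j * s = s * j := by
    rw [hs]
    exact (Commute.sum_right _ _ _ (fun i _ => hcomm.pow_right i))
  have h1 : (1 - t) * s = 1 := by
    rw [hs, mul_neg_geom_sum, htm, sub_zero]
  have ha' : a = c • (j * (1 - t)) := by
    rw [mul_sub, mul_one, hjt, ht, sub_neg_eq_add, smul_add, smul_smul, mul_inv_cancel₀ hc,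
      one_smul]
    abel
  refine ⟨c⁻¹ • (j * s), ⟨(hfix.mul hsf).smul _, ?_, ?_⟩, ?_⟩
  · rw [mul_smul_comm, ← mul_assoc, hj]
  · rw [smul_mul_assoc, mul_assoc, ← hjs, ← mul_assoc, hj]
  · rw [ha', smul_mul_assoc, mul_smul_comm, smul_smul, mul_inv_cancel₀ hc, one_smul]
    calc j * (1 - t) * (j * s) = j * (1 - t) * (s * j) := by rw [hjs]
      _ = j * ((1 - t) * s) * j := by simp only [mul_assoc]
      _ = j := by rw [h1, mul_one, hj]

theorem nl1_mul_nil {Q : Subgroup G} {j x w : GA k G} (hfix : FixBy Q j) (hj : j * j = j)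
    (hloc : LocAt Q j) (hj0 : j ≠ 0) (hx : nl1Cor Q j x) (hxn : IsNilpotent x)
    (hw : nl1Cor Q j w) : IsNilpotent (x * w) := by
  have hxw := hx.mul hw
  obtain ⟨c, hc⟩ := hloc _ hxw.1 hxw.2.1 hxw.2.2
  by_cases hc0 : c = 0
  · rwa [hc0, zero_smul, sub_zero] at hc
  · obtain ⟨v, _, hv⟩ := nl1_unit hfix hj hxw hc0 hc
    rw [mul_assoc] at hv
    exact (nl1_not_rinv hj0 hxn hx.2.2 hv).elim

theorem nl1_add_nil {Q : Subgroup G} {j x y : GA k G} (hfix : FixBy Q j) (hj : j * j = j)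
    (hloc : LocAt Q j) (hj0 : j ≠ 0) (hx : nl1Cor Q j x) (hxn : IsNilpotent x)
    (hy : nl1Cor Q j y) (hyn : IsNilpotent y) : IsNilpotent (x + y) := by
  have hxy := hx.add hy
  obtain ⟨c, hc⟩ := hloc _ hxy.1 hxy.2.1 hxy.2.2
  by_cases hc0 : c = 0
  · rwa [hc0, zero_smul, sub_zero] at hc
  · obtain ⟨w, hw, hv⟩ := nl1_unit hfix hj hxy hc0 hc
    have h1 := nl1_mul_nil hfix hj hloc hj0 hx hxn hw
    have h2 : IsNilpotent (y * w - (1 : k) • j) := by
      have : y * w - (1 : k) • j = -(x * w) := by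
        rw [one_smul, ← hv, add_mul]; abel
      rw [this]
      exact h1.neg
    obtain ⟨v, _, hv'⟩ := nl1_unit hfix hj (hy.mul hw) one_ne_zero h2
    rw [mul_assoc] at hv'
    exact (nl1_not_rinv hj0 hyn hy.2.2 hv').elim

theorem nl1_cls_fixBy (H : Subgroup G) (g : G) : FixBy H (cls H g : GA k G) := by
  rw [fixBy_iff]
  intro u hu y
  by_cases h : ∃ x ∈ H, y = x * g * x⁻¹
  · rw [cls_apply_of H g h]
    obtain ⟨x, hx, rfl⟩ := h
    exact cls_apply_of H g ⟨u * x, H.mul_mem hu hx, by group⟩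
  · rw [cls_apply_not H g h]
    apply cls_apply_not
    rintro ⟨x, hx, hxy⟩
    apply h
    refine ⟨u⁻¹ * x, H.mul_mem (H.inv_mem hu) hx, ?_⟩
    have : y = u⁻¹ * (u * y * u⁻¹) * u := by group
    rw [this, hxy]; group

open Classical in
/-- induction principle: an `H`-fixed element is a combination of `H`-orbit sums -/
theorem nl1_fixBy_induction {H : Subgroup G} (N : GA k G → Prop) (h0 : N 0)
    (hadd : ∀ a b, N a → N b → N (a + b)) :
    ∀ (n : ℕ) (z : GA k G), FixBy H z → (∀ g, z g ≠ 0 → N (z g • cls H g)) →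
      (Finset.univ.filter (fun g => z g ≠ 0)).card = n → N z := by
  classical
  intro n
  induction n using Nat.strong_induction_on with
  | _ n ih =>
    intro z hz hN hn
    by_cases hz0 : z = 0
    · rw [hz0]; exact h0
    · have : ∃ g, z g ≠ 0 := by
        by_contra hcon
        push Not at hcon
        exact hz0 (GA.ext hcon)
      obtain ⟨g, hg⟩ := this
      obtain ⟨z', hz'⟩ : ∃ z', z' = z - z g • cls H g := ⟨_, rfl⟩
      have hz'Z : FixBy H z' := hz' ▸ hz.sub ((nl1_cls_fixBy H g).smul _)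
      have hval : ∀ y, (∃ x ∈ H, y = x * g * x⁻¹) → z' y = 0 := by
        intro y hy
        rw [hz', GA.sub_apply, GA.smul_apply, cls_apply_of H g hy, mul_one]
        obtain ⟨x, hx, rfl⟩ := hy
        rw [hz.apply hx, sub_self]
      have hval2 : ∀ y, (¬ ∃ x ∈ H, y = x * g * x⁻¹) → z' y = z y := by
        intro y hy
        rw [hz', GA.sub_apply, GA.smul_apply, cls_apply_not H g hy, mul_zero, sub_zero]
      have hsub : Finset.univ.filter (fun y => z' y ≠ 0) ⊂ Finset.univ.filter (fun y => z y ≠ 0) := by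
        rw [Finset.ssubset_iff_of_subset]
        · refine ⟨g, by simpa using hg, ?_⟩
          simp only [Finset.mem_filter, Finset.mem_univ, true_and, not_not]
          exact hval g ⟨1, H.one_mem, by simp⟩
        · intro y hy
          simp only [Finset.mem_filter, Finset.mem_univ, true_and] at hy ⊢
          by_cases h : ∃ x ∈ H, y = x * g * x⁻¹
          · exact absurd (hval y h) hy
          · rwa [hval2 y h] at hy
      have hN' : N z' := by
        refine ih _ (by rw [← hn]; exact Finset.card_lt_card hsub) z' hz'Z ?_ rfl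
        intro y hy
        by_cases h : ∃ x ∈ H, y = x * g * x⁻¹
        · exact absurd (hval y h) hy
        · rw [hval2 y h] at hy ⊢
          exact hN y hy
      have : z = z' + z g • cls H g := by rw [hz']; abel
      rw [this]
      exact hadd _ _ hN' (hN g hg)

variable [CharP k p]

/-- left analogue of `ZD.mul` -/
theorem nl1_ZD_mul_left {H D : Subgroup G} {z w : GA k G} (hwd : ZD p H D w) (hz : FixBy H z)
    (hw : FixBy H w) : ZD p H D (z * w) := by
  classical
  intro g hg S hSH hS hSg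
  by_contra hcon
  apply hg
  rw [GA.mul_apply, sum_conj_invariant hS (fun x => z x * w (x⁻¹ * g))]
  · refine Finset.sum_eq_zero (fun x _ => ?_)
    split_ifs with hx
    · have : w (x⁻¹ * g) = 0 := by
        by_contra hzx
        refine hcon (hwd _ hzx S hSH hS (fun s hs => ?_))
        have h1 := mem_Cn.1 hx s hs
        have h2 := hSg s hs
        have h3 : s * x⁻¹ = x⁻¹ * s := by
          rw [eq_inv_mul_iff_mul_eq, ← mul_assoc, ← h1, mul_inv_cancel_right]
        rw [← mul_assoc, h3, mul_assoc, h2, mul_assoc]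
      rw [this, mul_zero]
    · rfl
  · intro u hu x
    rw [hz.apply (hSH hu)]
    congr 1
    have h1 : (u * x * u⁻¹)⁻¹ * g = u * (x⁻¹ * g) * u⁻¹ := by
      have := hSg u hu
      have h2 : u⁻¹ * g = g * u⁻¹ := by
        rw [eq_mul_inv_iff_mul_eq, mul_assoc, ← this, inv_mul_cancel_left]
      simp only [mul_inv_rev, inv_inv, mul_assoc, h2]
    rw [h1, hw.apply (hSH hu)]

end aux

theorem exists_max_supp {k : Type*} [Field k] [CharP k p] {Q : Subgroup G} (hQ : IsPGroup p Q)
    {j : GA k G} (hfix : FixBy Q j) (hj : j * j = j) (hloc : LocAt Q j) (hj0 : j ≠ 0)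
    (hbr : br Q j = 0) :
    ∃ T : Subgroup G, T ≤ Q ∧ Q ≤ Nn T ∧ T.relIndex Q = p ∧
      ∀ g, j g ≠ 0 → ∀ u ∈ Q, u * g = g * u → u ∈ T := by
  classical
  have hcor : ∀ a : GA k G, FixBy Q a → nl1Cor Q j (j * a * j) := fun a ha =>
    ⟨(hfix.mul ha).mul hfix, by rw [← mul_assoc, ← mul_assoc, hj], by rw [mul_assoc, hj]⟩
  have hex : ∃ g, j g ≠ 0 ∧ ¬ IsNilpotent (j * cls Q g * j) := by
    by_contra hcon
    push Not at hcon
    have := nl1_fixBy_induction (H := Q) (fun a => FixBy Q a ∧ IsNilpotent (j * a * j))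
      ⟨FixBy.zero, by rw [mul_zero, zero_mul]; exact IsNilpotent.zero⟩
      (fun a a' ha ha' => ⟨ha.1.add ha'.1, by
        rw [mul_add, add_mul]
        exact nl1_add_nil hfix hj hloc hj0 (hcor a ha.1) ha.2 (hcor a' ha'.1) ha'.2⟩)
      _ j hfix
      (fun g hg => ⟨(nl1_cls_fixBy Q g).smul _, by
          rw [mul_smul_comm, smul_mul_assoc]; exact isNilpotent_smul _ (hcon g hg)⟩) rfl
    have h2 := this.2
    rw [hj, hj] at h2
    obtain ⟨m, hm⟩ := h2
    apply hj0
    have : ∀ m : ℕ, j ^ (m + 1) = j := by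
      intro m
      induction m with
      | zero => simp
      | succ m ih => rw [pow_succ, ih, hj]
    rw [← this m, pow_succ, hm, zero_mul]
  obtain ⟨g, hg, hnil⟩ := hex
  have hw0 := hcor _ (nl1_cls_fixBy (k := k) Q g)
  obtain ⟨c, hc⟩ := hloc _ hw0.1 hw0.2.1 hw0.2.2
  have hc0 : c ≠ 0 := by
    intro h0
    rw [h0, zero_smul, sub_zero] at hc
    exact hnil hc
  obtain ⟨w', hw', hww⟩ := nl1_unit hfix hj hw0 hc0 hc
  have hgC : g ∉ Cn Q := by
    intro h
    apply hg
    rw [← br_apply_mem j h, hbr, GA.zero_apply]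
  have hS : Q ⊓ Subgroup.centralizer {g} < Q := by
    refine lt_of_le_of_ne inf_le_left (fun h => hgC ?_)
    rw [mem_Cn]
    intro u hu
    have : u ∈ Q ⊓ Subgroup.centralizer {g} := by rw [h]; exact hu
    have := (Subgroup.mem_inf.1 this).2
    rw [Subgroup.mem_centralizer_singleton_iff] at this
    exact this
  obtain ⟨T, hST, hTQ, hN, hidx⟩ := exists_index_p hQ hS
  have hzd : ZD p Q T (cls Q g : GA k G) := by
    intro y hy S' hSH _ hSy
    have hy' : ∃ x ∈ Q, y = x * g * x⁻¹ := by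
      by_contra h; exact hy (cls_apply_not Q g h)
    obtain ⟨x, hx, rfl⟩ := hy'
    refine ⟨x, hx, fun s hs => ?_⟩
    rw [mem_cS]
    apply hST
    refine Subgroup.mem_inf.2 ⟨Q.mul_mem (Q.mul_mem (Q.inv_mem hx) (hSH hs)) hx, ?_⟩
    rw [Subgroup.mem_centralizer_singleton_iff]
    have h2 := hSy _ hs
    have h3 : x⁻¹ * (s * (x * g * x⁻¹)) * x = x⁻¹ * (x * g * x⁻¹ * s) * x := by rw [h2]
    simpa [mul_assoc] using h3
  have hzj : ZD p Q T j := by
    have h1 : ZD p Q T (cls Q g * (j * w')) := hzd.mul (nl1_cls_fixBy Q g) (hfix.mul hw'.1)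
    have h2 := nl1_ZD_mul_left h1 hfix ((nl1_cls_fixBy Q g).mul (hfix.mul hw'.1))
    have h3 : j * (cls Q g * (j * w')) = j := by
      calc j * (cls Q g * (j * w')) = j * cls Q g * j * w' := by simp only [mul_assoc]
        _ = j := hww
    rwa [h3] at h2
  refine ⟨T, hTQ, hN, hidx, fun g' hg' u hu hug => ?_⟩
  obtain ⟨x, hx, hle⟩ := hzj g' hg' (Subgroup.zpowers u) (by rwa [Subgroup.zpowers_le])
    (hQ.to_le (by rwa [Subgroup.zpowers_le])) (by
      intro s hs
      obtain ⟨n, rfl⟩ := Subgroup.mem_zpowers_iff.1 hs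
      exact ((Commute.zpow_left (show Commute u g' from hug) n)).eq)
  rw [cS_eq_self_of_mem_Nn (hN hx)] at hle
  exact hle (Subgroup.mem_zpowers u)

end Cfsg.Agent.Lib.Helper83.Star
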