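import Mathlib
import Cfsg.Agent.Lib.Helper83.Star.Base
import Cfsg.Agent.Lib.Helper83.Star.LDI

set_option autoImplicit false
set_option linter.unusedSectionVars false

namespace Cfsg.Agent.Lib.Helper83.Star

open scoped BigOperators
open Cfsg Cfsg.Agent.Lib.Helper80 Cfsg.Agent.Lib.Helper80.GA Cfsg.Agent.Lib.Helper81

variable {p : ℕ} [Fact p.Prime] {M : Ideal AlgInt} {G : Type*} [Group G] [Fintype G]

theorem suppOn_top {R : Type*} [CommRing R] (a : GA R G) : SuppOn (⊤ : Subgroup G) a :=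
  fun g hg => absurd (Subgroup.mem_top g) hg

theorem prim_redO (hM : IsPModular p M) {Q : Subgroup G} {j : GA (locRing hM) G}
    (hj : Prim Q j) : Prim Q (redO hM j) := by
  obtain ⟨hjF, hjj, hjp⟩ := hj
  refine ⟨fixBy_redO hM hjF, by rw [← map_mul, hjj], ?_⟩
  intro i hiF hii h1 h2
  obtain ⟨i', -, hi'F, hi'i', h3, h4, h5⟩ := lift_idem_corner hM ⊤ Q (suppOn_top j) hjF hjj
    (suppOn_top i) hiF hii h1 h2
  rcases hjp i' hi'F hi'i' h3 h4 with h | h
  · left; rw [← h5, h, map_zero]
  · right; rw [← h5, h]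

theorem locAt_of_prim {k : Type*} [Field k] [IsAlgClosed k] {Q : Subgroup G} {j : GA k G}
    (hj : Prim Q j) : LocAt Q j := by
  obtain ⟨hjF, hjj, hjp⟩ := hj
  intro a haF h1 h2
  by_cases hj0 : j = 0
  · refine ⟨0, ?_⟩
    rw [zero_smul, sub_zero, ← h1, hj0, zero_mul]
    exact IsNilpotent.zero
  obtain ⟨D, hD1, hD2⟩ := exists_ldK (G := G) k ⊤ Q
  have hmem : ∀ b : GA k G, FixBy Q b → b ∈ D.S := by
    intro b hb
    rw [hD1]
    exact ⟨suppOn_top b, hb⟩
  have hP : D.Prim j := by
    refine ⟨hmem j hjF, hjj, hj0, ?_⟩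
    rintro e ⟨he, he1, he2⟩ hee
    rw [hD1] at he
    exact hjp e he.2 hee he1 he2
  by_contra hcon
  push Not at hcon
  have hcor : ∀ c : k, D.Cor j (a - c • j) := by
    intro c
    refine ⟨hmem _ (haF.sub (hjF.smul c)), ?_, ?_⟩
    · rw [mul_sub, h1, mul_smul_comm, hjj]
    · rw [sub_mul, h2, smul_mul_assoc, hjj]
  have hCU : ∀ c : k, D.CU j (a - c • j) := by
    intro c
    rcases hP.unit_or_small (hcor c) with h | ⟨n, hn⟩
    · exact h
    · exfalso
      rw [hD2] at hn
      exact hcon c ⟨n + 1, hn⟩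
  obtain ⟨f, hf, hfa⟩ := (Algebra.IsIntegral.of_finite k (GA k G)).isIntegral a
  have hsp := (IsAlgClosed.splits f).eq_prod_roots
  rw [hf.leadingCoeff, Polynomial.C_1, one_mul] at hsp
  have key : ∀ s : Multiset k,
      D.CU j (j * Polynomial.aeval a (s.map (fun c => Polynomial.X - Polynomial.C c)).prod) := by
    intro s
    induction s using Multiset.induction_on with
    | empty =>
      simp only [Multiset.map_zero, Multiset.prod_zero, map_one, mul_one]
      exact LD.CU.self hP
    | cons c s ih =>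
      rw [Multiset.map_cons, Multiset.prod_cons, map_mul]
      have e1 : Polynomial.aeval a (Polynomial.X - Polynomial.C c) = a - c • 1 := by
        rw [map_sub, Polynomial.aeval_X, Polynomial.aeval_C, Algebra.algebraMap_eq_smul_one]
      have e2 : j * (a - c • (1 : GA k G)) = (a - c • j) * j := by
        rw [mul_sub, h1, mul_smul_comm, mul_one, (hcor c).2.2]
      rw [e1, ← mul_assoc, e2, mul_assoc]
      exact (hCU c).mul ih
  have h0 := key f.roots
  rw [← hsp] at h0
  have hfa' : Polynomial.aeval a f = 0 := hfa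
  rw [hfa', mul_zero] at h0
  obtain ⟨-, b, -, hb, -⟩ := h0
  rw [zero_mul] at hb
  exact hj0 hb.symm

end Cfsg.Agent.Lib.Helper83.Star
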