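import Mathlib
import Cfsg.Agent.Lib.Helper83.Star.Base

set_option autoImplicit false
set_option linter.unusedSectionVars false

namespace Cfsg.Agent.Lib.Helper83.Star

open scoped BigOperators
open Cfsg Cfsg.Agent.Lib.Helper80 Cfsg.Agent.Lib.Helper80.GA Cfsg.Agent.Lib.Helper81

variable {p : ℕ} [Fact p.Prime] {M : Ideal AlgInt} {G : Type*} [Group G] [Fintype G]

/-- coefficientwise inclusion `𝒪G → ℂG` -/
noncomputable def toC (hM : IsPModular p M) : GA (locRing hM) G →+* GA ℂ G :=
  mapR (locRing hM).subtype

theorem toC_injective (hM : IsPModular p M) :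
    Function.Injective (toC hM : GA (locRing hM) G → GA ℂ G) := by
  intro a b h
  ext g
  have := congrFun h g
  exact this

theorem prim_induction_aux (hM : IsPModular p M) {Q : Subgroup G} (P : GA (locRing hM) G → Prop)
    (hadd : ∀ i j : GA (locRing hM) G, FixBy Q i → FixBy Q j → i * i = i → j * j = j →
      i * j = 0 → j * i = 0 → P i → P j → P (i + j))
    (hprim : ∀ j, Prim Q j → P j) (V : Submodule ℂ (GA ℂ G)) :
    ∀ j : GA (locRing hM) G, FixBy Q j → j * j = j →
      V = LinearMap.range (LinearMap.mulLeft ℂ (toC hM j)) → P j := by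
  classical
  induction V using WellFoundedLT.induction with
  | ind V ih =>
    intro j hjf hjj hV
    by_cases hp : Prim Q j
    · exact hprim j hp
    · have : ∃ i : GA (locRing hM) G, FixBy Q i ∧ i * i = i ∧ j * i = i ∧ i * j = i ∧
          i ≠ 0 ∧ i ≠ j := by
        by_contra hcon
        apply hp
        refine ⟨hjf, hjj, ?_⟩
        intro i h1 h2 h3 h4
        by_contra h5
        push Not at h5
        exact hcon ⟨i, h1, h2, h3, h4, h5.1, h5.2⟩
      obtain ⟨i, hif, hii, hji, hij, hi0, hine⟩ := this
      have small : ∀ z : GA (locRing hM) G, FixBy Q z → z * z = z → j * z = z → z * j = z →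
          z ≠ j → P z := by
        intro z hzf hzz hjz hzj hne
        refine ih (LinearMap.range (LinearMap.mulLeft ℂ (toC hM z))) ?_ z hzf hzz rfl
        rw [hV]
        refine lt_of_le_of_ne ?_ ?_
        · rintro _ ⟨a, rfl⟩
          refine ⟨toC hM z * a, ?_⟩
          simp only [LinearMap.mulLeft_apply]
          rw [← mul_assoc, ← map_mul, hjz]
        · intro heq
          have : toC hM j ∈ LinearMap.range (LinearMap.mulLeft ℂ (toC hM z)) := by
            rw [heq]
            exact ⟨toC hM j, by simp only [LinearMap.mulLeft_apply]; rw [← map_mul, hjj]⟩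
          obtain ⟨a, ha⟩ := this
          simp only [LinearMap.mulLeft_apply] at ha
          apply hne
          apply toC_injective hM
          calc toC hM z = toC hM z * toC hM j := by rw [← map_mul, hzj]
            _ = toC hM z * (toC hM z * a) := by rw [ha]
            _ = toC hM z * a := by rw [← mul_assoc, ← map_mul, hzz]
            _ = toC hM j := ha
      have h1 : P i := small i hif hii hji hij hine
      have hd : (j - i) * (j - i) = j - i := by
        rw [mul_sub, sub_mul, sub_mul, hjj, hii, hji, hij]; abel
      have h2 : P (j - i) := small (j - i) (hjf.sub hif) hd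
        (by rw [mul_sub, hjj, hji]) (by rw [sub_mul, hjj, hij])
        (by intro h; exact hi0 (sub_eq_self.1 h))
      have h3 := hadd i (j - i) hif (hjf.sub hif) hii hd (by rw [mul_sub, hij, hii, sub_self])
        (by rw [sub_mul, hji, hii, sub_self]) h1 h2
      rwa [add_sub_cancel] at h3

theorem prim_induction (hM : IsPModular p M) {Q : Subgroup G} (P : GA (locRing hM) G → Prop)
    (hadd : ∀ i j : GA (locRing hM) G, FixBy Q i → FixBy Q j → i * i = i → j * j = j →
      i * j = 0 → j * i = 0 → P i → P j → P (i + j))
    (hprim : ∀ j, Prim Q j → P j) : ∀ j : GA (locRing hM) G, FixBy Q j → j * j = j → P j :=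
  fun j hjf hjj => prim_induction_aux hM P hadd hprim _ j hjf hjj rfl

end Cfsg.Agent.Lib.Helper83.Star
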