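import Mathlib
import Cfsg.Agent.Lib.Helper83.Star.Base
import Cfsg.Agent.Lib.Helper80.GALocal
import Cfsg.Agent.Lib.Helper80.GADef

set_option autoImplicit false
set_option linter.unusedSectionVars false

namespace Cfsg.Agent.Lib.Helper83.Star

open scoped BigOperators
open Cfsg Cfsg.Agent.Lib.Helper80 Cfsg.Agent.Lib.Helper80.GA Cfsg.Agent.Lib.Helper81

variable {p : ℕ} [Fact p.Prime] {M : Ideal AlgInt} {G : Type*} [Group G] [Fintype G]

/-- left analogue of `ZD.mul` -/
theorem zd_mul_left {k : Type*} [Field k] [CharP k p] {H D : Subgroup G} {z w : GA k G}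
    (hwd : ZD p H D w) (hz : FixBy H z) (hw : FixBy H w) : ZD p H D (z * w) := by
  classical
  intro g hg S hSH hS hSg
  by_contra hcon
  apply hg
  rw [GA.mul_apply, sum_conj_invariant hS (fun x => z x * w (x⁻¹ * g))]
  · refine Finset.sum_eq_zero (fun x _ => ?_)
    split_ifs with hx
    · have : w (x⁻¹ * g) = 0 := by
        by_contra hwx
        refine hcon (hwd _ hwx S hSH hS (fun s hs => ?_))
        have h1 := mem_Cn.1 hx s hs
        have h2 := hSg s hs
        have h3 : s * x⁻¹ = x⁻¹ * s := by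
          rw [eq_inv_mul_iff_mul_eq, ← mul_assoc, ← h1, mul_assoc, mul_inv_cancel, mul_one]
        rw [← mul_assoc, h3, mul_assoc, h2, mul_assoc]
      rw [this, mul_zero]
    · rfl
  · intro u hu x
    rw [hz.apply (hSH hu)]
    congr 1
    have h1 : (u * x * u⁻¹)⁻¹ * g = u * (x⁻¹ * g) * u⁻¹ := by
      have := hSg u hu
      have h2 : u⁻¹ * g = g * u⁻¹ := by
        rw [eq_mul_inv_iff_mul_eq, mul_assoc, ← this, inv_mul_cancel_left]
      simp only [mul_inv_rev, inv_inv, mul_assoc, h2]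
    rw [h1, hw.apply (hSH hu)]

theorem mem_Nn_of_forall {T : Subgroup G} {x : G} (h : ∀ t ∈ T, x * t * x⁻¹ ∈ T) : x ∈ Nn T :=
  Subgroup.mem_normalizer_fintype (S := (T : Set G)) h

/-- conjugation and commutation -/
theorem conj_comm {s g : G} (x : G) (h : s * g = g * s) :
    (x * s * x⁻¹) * (x * g * x⁻¹) = (x * g * x⁻¹) * (x * s * x⁻¹) := by
  have h1 : (x * s * x⁻¹) * (x * g * x⁻¹) = x * (s * g) * x⁻¹ := by group
  have h2 : (x * g * x⁻¹) * (x * s * x⁻¹) = x * (g * s) * x⁻¹ := by group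
  rw [h1, h2, h]

/-- spreading an `N_Q(T)`-fixed element whose support has `Q`-centralisers equal to `T` -/
theorem exists_spread {k : Type*} [Field k] [CharP k p] {Q T : Subgroup G} (hTQ : T ≤ Q)
    {eps : GA k G} (hsupp : SuppOn (Cn T) eps) (hN : FixBy (Q ⊓ Nn T) eps)
    (hB : ∀ g, eps g ≠ 0 → ∀ x ∈ Q, x * g = g * x → x ∈ T) :
    ∃ z : GA k G, FixBy Q z ∧ ZD p Q T z ∧ br T z = eps := by
  classical
  -- if `y` centralises `T` and a `Q`-conjugate of `y` is in the support, the conjugator is in `N`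
  have hK : ∀ y : G, y ∈ Cn T → ∀ w ∈ Q, eps (w⁻¹ * y * w) ≠ 0 → w ∈ Q ⊓ Nn T := by
    intro y hy w hw h1
    refine Subgroup.mem_inf.2 ⟨hw, ?_⟩
    have : w⁻¹ ∈ Nn T := by
      apply mem_Nn_of_forall
      intro t ht
      apply hB _ h1 _ (Q.mul_mem (Q.mul_mem (Q.inv_mem hw) (hTQ ht)) (Q.inv_mem (Q.inv_mem hw)))
      have h3 := conj_comm w⁻¹ (mem_Cn.1 hy t ht)
      simpa using h3
    simpa using (Nn T).inv_mem this
  have hW : ∀ y : G, ∀ x ∈ Q, ∀ x' ∈ Q, eps (x⁻¹ * y * x) ≠ 0 → eps (x'⁻¹ * y * x') ≠ 0 →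
      eps (x'⁻¹ * y * x') = eps (x⁻¹ * y * x) := by
    intro y x hx x' hx' h1 h2
    have hwQ : x⁻¹ * x' ∈ Q := Q.mul_mem (Q.inv_mem hx) hx'
    have hconj : x'⁻¹ * y * x' = (x⁻¹ * x')⁻¹ * (x⁻¹ * y * x) * (x⁻¹ * x') := by group
    have hg : x⁻¹ * y * x ∈ Cn T := by
      by_contra hc; exact h1 (hsupp _ hc)
    rw [hconj] at h2 ⊢
    exact hN.apply' (hK _ hg _ hwQ h2) _
  obtain ⟨z, hz⟩ : ∃ z : GA k G, ∀ y, z y =
      if h : ∃ x ∈ Q, eps (x⁻¹ * y * x) ≠ 0 then eps ((Classical.choose h)⁻¹ * y * Classical.choose h)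
      else 0 := ⟨fun y => _, fun _ => rfl⟩
  have z1 : ∀ y, ∀ x ∈ Q, eps (x⁻¹ * y * x) ≠ 0 → z y = eps (x⁻¹ * y * x) := by
    intro y x hx h1
    have h : ∃ x ∈ Q, eps (x⁻¹ * y * x) ≠ 0 := ⟨x, hx, h1⟩
    rw [hz, dif_pos h]
    exact hW y x hx _ (Classical.choose_spec h).1 h1 (Classical.choose_spec h).2
  have z2 : ∀ y, z y ≠ 0 → ∃ x ∈ Q, eps (x⁻¹ * y * x) ≠ 0 := by
    intro y hy
    by_contra h
    rw [hz, dif_neg h] at hy
    exact hy rfl
  refine ⟨z, ?_, ?_, ?_⟩
  · rw [fixBy_iff]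
    intro u hu y
    by_cases h : ∃ x ∈ Q, eps (x⁻¹ * y * x) ≠ 0
    · obtain ⟨x, hx, h1⟩ := h
      have e : (u * x)⁻¹ * (u * y * u⁻¹) * (u * x) = x⁻¹ * y * x := by group
      rw [z1 y x hx h1, z1 (u * y * u⁻¹) (u * x) (Q.mul_mem hu hx) (by rw [e]; exact h1), e]
    · have h0 : z y = 0 := by
        by_contra hy; exact h (z2 y hy)
      rw [h0]
      by_contra hy
      obtain ⟨x, hx, h1⟩ := z2 _ hy
      apply h
      refine ⟨u⁻¹ * x, Q.mul_mem (Q.inv_mem hu) hx, ?_⟩
      have e : (u⁻¹ * x)⁻¹ * y * (u⁻¹ * x) = x⁻¹ * (u * y * u⁻¹) * x := by group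
      rw [e]; exact h1
  · intro g hg S hSQ _ hSg
    obtain ⟨x, hx, h1⟩ := z2 g hg
    refine ⟨x, hx, fun s hs => ?_⟩
    rw [mem_cS]
    apply hB _ h1 _ (Q.mul_mem (Q.mul_mem (Q.inv_mem hx) (hSQ hs)) hx)
    have h3 := conj_comm x⁻¹ (hSg s hs)
    simpa using h3
  · ext y
    by_cases hy : y ∈ Cn T
    · rw [br_apply_mem _ hy]
      by_cases h0 : eps y = 0
      · rw [h0]
        by_contra hzy
        obtain ⟨x, hx, h1⟩ := z2 y hzy
        apply h1
        rw [hN.apply' (hK y hy x hx h1), h0]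
      · have := z1 y 1 Q.one_mem (by simpa using h0)
        simpa using this
    · rw [br_apply_not_mem _ hy, hsupp y hy]

theorem card_lt_of_lt {A B : Subgroup G} (h : A < B) : Nat.card A < Nat.card B :=
  Set.ncard_lt_ncard (s := (A : Set G)) (t := (B : Set G)) (by exact_mod_cast h) (Set.toFinite _)

theorem sb_aux {k : Type*} [Field k] [CharP k p] {Q : Subgroup G}
    (hQ : IsPGroup p Q) {j : GA k G} (hfix : FixBy Q j) (hj : j * j = j) (hloc : LocAt Q j)
    (hbr : br Q j ≠ 0) {f : GA k G} (hf : IsBlk (Cn Q) f) (hjf : br Q j * f = br Q j) :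
    ∀ (n : ℕ) (T : Subgroup G) (fT : GA k G), Nat.card Q - Nat.card T = n →
      BPLE p (T, fT) (Q, f) → br T j * fT = br T j := by
  have he : IsBP p Q f := ⟨hQ, hf⟩
  intro n
  induction n using Nat.strong_induction_on with
  | _ n ih =>
    intro T fT hn hle
    have hTQ : T ≤ Q := hle.le
    by_cases hTeq : T = Q
    · subst hTeq
      have : fT = f := he.subpair_unique _ T fT f rfl hle Relation.ReflTransGen.refl
      rw [this]; exact hjf
    have hlt : T < Q := lt_of_le_of_ne hTQ hTeq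
    have hT : IsBP p T fT := hle.isBP he
    have hTN : T < Q ⊓ Nn T := lt_inf_normalizer hQ hlt
    obtain ⟨E, hE⟩ : ∃ E, E = br T j := ⟨_, rfl⟩
    have hEE : E * E = E := by rw [hE]; exact br_idem hT.1 (hfix.mono hTQ) hj
    have hEs : SuppOn (Cn T) E := by rw [hE]; exact br_suppOn T j
    have hEf : E * fT = fT * E := commute_of_suppOn_fixBy hEs hT.2.inZ.2
    obtain ⟨eps, heps⟩ : ∃ eps, eps = E - E * fT := ⟨_, rfl⟩
    have hff : fT * fT = fT := hT.2.idem
    have h1 : E * (E * fT) = E * fT := by rw [← mul_assoc, hEE]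
    have h2 : E * fT * E = E * fT := by rw [mul_assoc, ← hEf, ← mul_assoc, hEE]
    have h3 : E * fT * (E * fT) = E * fT := by
      rw [← mul_assoc, h2, mul_assoc, hff]
    have hepsi : eps * eps = eps := by
      rw [heps, mul_sub, sub_mul, sub_mul, hEE, h1, h2, h3]; abel
    have hEeps : E * eps = eps := by rw [heps, mul_sub, hEE, h1]
    have hepsE : eps * E = eps := by rw [heps, sub_mul, hEE, h2]
    have hepss : SuppOn (Cn T) eps := by
      rw [heps]; exact hEs.sub (hEs.mul hT.2.inZ.1)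
    -- fixed by N
    obtain ⟨gN, hgN, _⟩ := hle.exists_nsub_mid he (R := Q ⊓ Nn T) hTN.le inf_le_left inf_le_right
    have hEN : FixBy (Q ⊓ Nn T) E := by
      rw [hE]; exact (hfix.mono inf_le_left).br inf_le_right
    have hfN : FixBy (Q ⊓ Nn T) fT := hgN.2.2.2.2.1
    have hepsN : FixBy (Q ⊓ Nn T) eps := by
      rw [heps]; exact hEN.sub (hEN.mul hfN)
    -- Claim A
    have hA : ∀ U : Subgroup G, T < U → U ≤ Q ⊓ Nn T → br U eps = 0 := by
      intro U hTU hUN
      have hUQ : U ≤ Q := hUN.trans inf_le_left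
      obtain ⟨gU, hnU, hleU⟩ := hle.exists_nsub_mid he (R := U) hTU.le hUQ (hUN.trans inf_le_right)
      have hc1 := card_lt_of_lt hTU
      have hc2 : Nat.card U ≤ Nat.card Q := Subgroup.card_le_of_le hUQ
      have hIH := ih (Nat.card Q - Nat.card U) (by omega) U gU rfl hleU
      have hU : IsPGroup p U := hQ.to_le hUQ
      have hb1 : br U E = br U j := by rw [hE, br_br hTU.le]
      have hb2 : br U (E * fT) = br U j * br U fT := by
        rw [br_mul hU (hEN.mono hUN) (hfN.mono hUN), hb1]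
      have hcomm : gU * br U fT = br U fT * gU :=
        (commute_of_suppOn_fixBy (br_suppOn U fT) hnU.2.1.2.inZ.2).symm
      have hb3 : br U j * br U fT = br U j := by
        calc br U j * br U fT = br U j * gU * br U fT := by rw [hIH]
          _ = br U j * (br U fT * gU) := by rw [mul_assoc, hcomm]
          _ = br U j * gU := by rw [hnU.2.2.2.2.2]
          _ = br U j := hIH
      rw [heps, br_sub, hb1, hb2, hb3, sub_self]
    -- Claim B
    have hB : ∀ g, eps g ≠ 0 → ∀ x ∈ Q, x * g = g * x → x ∈ T := by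
      intro g hg
      have hgT : g ∈ Cn T := by
        by_contra hc; exact hg (hepss g hc)
      have hB1 : ∀ x ∈ Q ⊓ Nn T, x * g = g * x → x ∈ T := by
        intro x hx hxg
        by_contra hxT
        have hTU : T < T ⊔ Subgroup.zpowers x := by
          refine lt_of_le_of_ne le_sup_left (fun h => hxT ?_)
          rw [h]
          exact (le_sup_right : Subgroup.zpowers x ≤ T ⊔ Subgroup.zpowers x)
            (Subgroup.mem_zpowers x)
        have hUN : T ⊔ Subgroup.zpowers x ≤ Q ⊓ Nn T :=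
          sup_le hTN.le (by rw [Subgroup.zpowers_le]; exact hx)
        have hgx : g ∈ Cn (Subgroup.zpowers x) := by
          rw [mem_Cn]
          intro u hu
          obtain ⟨m, rfl⟩ := Subgroup.mem_zpowers_iff.1 hu
          exact ((Commute.zpow_left (show Commute x g from hxg) m)).eq
        have := congrArg (fun c : GA k G => c g) (hA _ hTU hUN)
        simp only [br_apply_mem _ (mem_Cn_sup hgT hgx), GA.zero_apply] at this
        exact hg this
      intro x hx hxg
      by_contra hxT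
      -- C = Q ⊓ centralizer {g}
      have hTC : T ≤ Q ⊓ Subgroup.centralizer ({g} : Set G) := by
        intro t ht
        refine Subgroup.mem_inf.2 ⟨hTQ ht, ?_⟩
        rw [Subgroup.mem_centralizer_singleton_iff]
        exact mem_Cn.1 hgT t ht
      have hxC : x ∈ Q ⊓ Subgroup.centralizer ({g} : Set G) := by
        refine Subgroup.mem_inf.2 ⟨hx, ?_⟩
        rw [Subgroup.mem_centralizer_singleton_iff]
        exact hxg
      have hTC' : T < Q ⊓ Subgroup.centralizer ({g} : Set G) :=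
        lt_of_le_of_ne hTC (fun h => hxT (by rw [h]; exact hxC))
      have h5 := lt_inf_normalizer (hQ.to_le inf_le_left) hTC'
      obtain ⟨w, hw, hwT⟩ := SetLike.exists_of_lt h5
      obtain ⟨hw1, hw2⟩ := Subgroup.mem_inf.1 hw
      obtain ⟨hw3, hw4⟩ := Subgroup.mem_inf.1 hw1
      rw [Subgroup.mem_centralizer_singleton_iff] at hw4
      exact hwT (hB1 w (Subgroup.mem_inf.2 ⟨hw3, hw2⟩) hw4)
    obtain ⟨z, hzQ, hzd, hzbr⟩ := exists_spread (p := p) hTQ hepss hepsN hB
    -- the corner element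
    obtain ⟨a, ha⟩ : ∃ a, a = j * z * j := ⟨_, rfl⟩
    have haQ : FixBy Q a := by rw [ha]; exact (hfix.mul hzQ).mul hfix
    have hja : j * a = a := by rw [ha, ← mul_assoc, ← mul_assoc, hj]
    have haj : a * j = a := by rw [ha, mul_assoc, hj]
    have hazd : ZD p Q T a := by
      rw [ha, mul_assoc]
      exact zd_mul_left (hzd.mul hzQ hfix) hfix (hzQ.mul hfix)
    have hbra : br Q a = 0 := by
      by_contra hne
      obtain ⟨x, _, hx⟩ := hazd.le_conj_of_br_ne le_rfl hQ hne
      have h6 : Nat.card Q ≤ Nat.card (cS x T) := Subgroup.card_le_of_le hx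
      rw [card_cS] at h6
      have := card_lt_of_lt hlt
      omega
    obtain ⟨c, hc⟩ := hloc a haQ hja haj
    have hnQ : FixBy Q (a - c • j) := haQ.sub (hfix.smul c)
    have hc0 : c = 0 := by
      by_contra hc0
      apply hbr
      apply eq_zero_of_idem_of_nilpotent (br_idem hQ hfix hj)
      obtain ⟨m, hm⟩ := hc
      have h7 : br Q (a - c • j) ^ m = 0 := by rw [← br_pow hQ hnQ, hm, br_zero]
      rw [br_sub, hbra, br_smul, zero_sub] at h7
      refine ⟨m, ?_⟩
      have h8 : (-(c • br Q j)) ^ m = ((-c) ^ m) • (br Q j) ^ m := by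
        rw [← neg_smul, smul_pow]
      rw [h8] at h7
      exact (smul_eq_zero.1 h7).resolve_left (pow_ne_zero _ (neg_ne_zero.2 hc0))
    rw [hc0, zero_smul, sub_zero] at hc
    have hbrTa : br T a = eps := by
      have hjT : FixBy T j := hfix.mono hTQ
      have hzT : FixBy T z := hzQ.mono hTQ
      rw [ha, br_mul hT.1 (hjT.mul hzT) hjT, br_mul hT.1 hjT hzT, hzbr, ← hE, hEeps, hepsE]
    have heps0 : eps = 0 := by
      apply eq_zero_of_idem_of_nilpotent hepsi
      obtain ⟨m, hm⟩ := hc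
      exact ⟨m, by rw [← hbrTa, ← br_pow hT.1 (haQ.mono hTQ), hm, br_zero]⟩
    rw [← hE]
    rw [heps] at heps0
    exact (sub_eq_zero.1 heps0).symm

theorem sb {k : Type*} [Field k] [CharP k p] {Q : Subgroup G}
    (hQ : IsPGroup p Q) {j : GA k G} (hfix : FixBy Q j) (hj : j * j = j) (hloc : LocAt Q j)
    (hbr : br Q j ≠ 0) {f : GA k G} (hf : IsBlk (Cn Q) f) (hjf : br Q j * f = br Q j)
    (T : Subgroup G) (fT : GA k G) (hle : BPLE p (T, fT) (Q, f)) : br T j * fT = br T j :=
  sb_aux hQ hfix hj hloc hbr hf hjf _ T fT rfl hle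

end Cfsg.Agent.Lib.Helper83.Star
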