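import Mathlib
import Cfsg.Agent.Lib.Helper83.Star.Base
import Cfsg.Agent.Lib.Helper81.PermTrace2

set_option autoImplicit false
set_option linter.unusedSectionVars false

namespace Cfsg.Agent.Lib.Helper83.Star

open scoped BigOperators
open Cfsg Cfsg.Agent.Lib.Helper80 Cfsg.Agent.Lib.Helper80.GA Cfsg.Agent.Lib.Helper81

variable {p : ℕ} [Fact p.Prime] {M : Ideal AlgInt} {G : Type*} [Group G] [Fintype G]

/-- an idempotent of `𝒪H` has vanishing class sums on `p`-singular classes of `H` -/
theorem sum_conj_idem_eq_zero (hM : IsPModular p M) {H : Subgroup G} {i : GA (locRing hM) G}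
    (hs : SuppOn H i) (hi : i * i = i) {h : G} (hh : h ∈ H) (hsing : p ∣ orderOf h) :
    ∑ x : G, (open Classical in if x ∈ H then ((i (x * h * x⁻¹) : locRing hM) : ℂ) else 0) = 0 := by
  classical
  set σ : Equiv.Perm G := Equiv.mulRight h⁻¹ with hσ
  set Φ : Matrix G G ℂ := fun x' x => if x ∈ H then ((i (x' * x⁻¹) : locRing hM) : ℂ) else 0
    with hΦ
  have hmem : ∀ x, x * h⁻¹ ∈ H ↔ x ∈ H := fun x => H.mul_mem_cancel_right (H.inv_mem hh)
  have key := sum_perm_idem_eq_zero' hM σ (fun x => x ∈ H) ?_ ?_ Φ ?_ ?_ ?_ ?_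
  · rw [← key]
    refine Finset.sum_congr rfl (fun x _ => ?_)
    show _ = if σ x ∈ H then ((i (x * (σ x)⁻¹) : locRing hM) : ℂ) else 0
    rw [hσ, Equiv.coe_mulRight]
    simp only [hmem]
    congr 3
    group
  · intro x
    rw [hσ, Equiv.coe_mulRight]
    exact hmem x
  · intro x _ n hn
    rw [hσ, Equiv.zpow_mulRight, Equiv.coe_mulRight] at hn
    have h1 : h⁻¹ ^ n = 1 := by
      have := mul_left_cancel (hn.trans (mul_one x).symm)
      exact this
    rw [inv_zpow, inv_eq_one] at h1
    have h2 : (orderOf h : ℤ) ∣ n := orderOf_dvd_iff_zpow_eq_one.2 h1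
    exact (Int.natCast_dvd_natCast.2 hsing).trans h2
  · intro a b
    show MemLocalRing M (if b ∈ H then ((i (a * b⁻¹) : locRing hM) : ℂ) else 0)
    split_ifs
    · exact (i (a * b⁻¹)).2
    · exact memLocalRing_zero hM
  · ext x' x
    rw [Matrix.mul_apply]
    show ∑ y, (if y ∈ H then ((i (x' * y⁻¹) : locRing hM) : ℂ) else 0)
        * (if x ∈ H then ((i (y * x⁻¹) : locRing hM) : ℂ) else 0)
      = if x ∈ H then ((i (x' * x⁻¹) : locRing hM) : ℂ) else 0
    by_cases hx : x ∈ H
    · simp only [if_pos hx]
      conv_rhs => rw [← hi, GA.mul_apply]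
      push_cast
      refine (Fintype.sum_equiv ((Equiv.inv G).trans (Equiv.mulLeft x')) _ _ (fun y => ?_))
      simp only [Equiv.trans_apply, Equiv.inv_apply, Equiv.coe_mulLeft]
      have e : (x' * y⁻¹)⁻¹ * (x' * x⁻¹) = y * x⁻¹ := by group
      rw [e]
      by_cases hy : y ∈ H
      · rw [if_pos hy]
      · rw [if_neg hy, zero_mul]
        have : y * x⁻¹ ∉ H := fun h' => hy ((H.mul_mem_cancel_right (H.inv_mem hx)).1 h')
        rw [hs _ this]
        simp
    · simp only [if_neg hx, mul_zero, Finset.sum_const_zero]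
  · intro a b
    show (if σ b ∈ H then ((i (σ a * (σ b)⁻¹) : locRing hM) : ℂ) else 0)
      = if b ∈ H then ((i (a * b⁻¹) : locRing hM) : ℂ) else 0
    rw [hσ, Equiv.coe_mulRight]
    simp only [hmem]
    congr 3
    group
  · intro a b hne
    have hne' : (if b ∈ H then ((i (a * b⁻¹) : locRing hM) : ℂ) else 0) ≠ 0 := hne
    by_cases hb : b ∈ H
    · rw [if_pos hb] at hne'
      refine ⟨?_, hb⟩
      by_contra ha
      apply hne'
      have : a * b⁻¹ ∉ H := fun h' => ha ((H.mul_mem_cancel_right (H.inv_mem hb)).1 h')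
      rw [hs _ this]
      simp
    · rw [if_neg hb] at hne'
      exact absurd rfl hne'

theorem proj_vanish (hM : IsPModular p M) {H : Subgroup G} {i : GA (locRing hM) G}
    (hs : SuppOn H i) (hi : i * i = i) (κ : G → ℂ)
    (hκ : ∀ h ∈ H, ∀ x ∈ H, κ (x * h * x⁻¹) = κ h)
    (hreg : ∀ h ∈ H, IsPRegular p h → κ h = 0) :
    ∑ h, ((i h : locRing hM) : ℂ) * κ h = 0 := by
  classical
  set S : ℂ := ∑ h, ((i h : locRing hM) : ℂ) * κ h with hS
  have h1 : ∀ x ∈ H, S = ∑ h : G, ((i (x * h * x⁻¹) : locRing hM) : ℂ) * κ h := by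
    intro x hx
    rw [hS]
    refine (Fintype.sum_equiv (MulAut.conj x).toEquiv _ _ (fun g => ?_)).symm
    simp only [MulEquiv.toEquiv_eq_coe, EquivLike.coe_coe, MulAut.conj_apply]
    by_cases hg : g ∈ H
    · rw [hκ g hg x hx]
    · have : x * g * x⁻¹ ∉ H := by
        intro h'
        apply hg
        have := H.mul_mem (H.mul_mem (H.inv_mem hx) h') hx
        simpa [mul_assoc] using this
      rw [hs _ this]
      simp
  have hcard : ((Finset.univ.filter (fun x : G => x ∈ H)).card : ℂ) ≠ 0 := by
    have : (Finset.univ.filter (fun x : G => x ∈ H)).Nonempty :=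
      ⟨1, by simp [H.one_mem]⟩
    exact_mod_cast this.card_pos.ne'
  have h2 : ((Finset.univ.filter (fun x : G => x ∈ H)).card : ℂ) * S = 0 := by
    calc ((Finset.univ.filter (fun x : G => x ∈ H)).card : ℂ) * S
        = ∑ _x ∈ Finset.univ.filter (fun x : G => x ∈ H), S := by
          rw [Finset.sum_const, nsmul_eq_mul]
      _ = ∑ x ∈ Finset.univ.filter (fun x : G => x ∈ H),
            ∑ h : G, ((i (x * h * x⁻¹) : locRing hM) : ℂ) * κ h :=
          Finset.sum_congr rfl (fun x hx => h1 x (Finset.mem_filter.1 hx).2)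
      _ = ∑ h : G, (∑ x : G, if x ∈ H then ((i (x * h * x⁻¹) : locRing hM) : ℂ) else 0) * κ h := by
          rw [Finset.sum_comm]
          refine Finset.sum_congr rfl (fun g _ => ?_)
          rw [Finset.sum_mul, Finset.sum_filter]
          refine Finset.sum_congr rfl (fun x _ => ?_)
          split_ifs <;> simp
      _ = 0 := by
          refine Finset.sum_eq_zero (fun g _ => ?_)
          by_cases hg : g ∈ H
          · by_cases hr : IsPRegular p g
            · rw [hreg g hg hr, mul_zero]
            · have hsing : p ∣ orderOf g := by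
                unfold IsPRegular at hr
                exact not_not.1 hr
              have := sum_conj_idem_eq_zero hM hs hi hg hsing
              have e : (∑ x : G, if x ∈ H then ((i (x * g * x⁻¹) : locRing hM) : ℂ) else 0) = 0 := by
                rw [← this]
                exact Finset.sum_congr rfl (fun x _ => by congr)
              rw [e, zero_mul]
          · rw [Finset.sum_eq_zero, zero_mul]
            intro x _
            split_ifs with hx
            · have : x * g * x⁻¹ ∉ H := by
                intro h'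
                apply hg
                have := H.mul_mem (H.mul_mem (H.inv_mem hx) h') hx
                simpa [mul_assoc] using this
              rw [hs _ this]
              simp
            · rfl
  exact (mul_eq_zero.1 h2).resolve_left hcard

end Cfsg.Agent.Lib.Helper83.Star
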