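import Mathlib
import Cfsg.Agent.Lib.Helper83.Star.Base
import Cfsg.Agent.Lib.Helper83.Star.CLA
import Cfsg.Agent.Lib.Helper83.Star.PROJV
import Cfsg.Agent.Lib.Helper83.Star.LDI

set_option autoImplicit false
set_option linter.unusedSectionVars false

namespace Cfsg.Agent.Lib.Helper83.Star

open scoped BigOperators
open Cfsg Cfsg.Agent.Lib.Helper80 Cfsg.Agent.Lib.Helper80.GA Cfsg.Agent.Lib.Helper81

variable {p : ℕ} [Fact p.Prime] {M : Ideal AlgInt} {G : Type*} [Group G] [Fintype G]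

theorem sec_cj_of {R : Type*} [CommRing R] (x y : G) :
    cj x (of y : GA R G) = of (x * y * x⁻¹) := by
  unfold cj
  rw [GA.of_mul_of, GA.of_mul_of]

theorem sec_zpowers_le_Cn (v : G) : Subgroup.zpowers v ≤ Cn (Subgroup.zpowers v) := by
  intro g hg
  rw [mem_Cn]
  intro u hu
  obtain ⟨a, rfl⟩ := Subgroup.mem_zpowers_iff.1 hg
  obtain ⟨b, rfl⟩ := Subgroup.mem_zpowers_iff.1 hu
  exact ((Commute.refl v).zpow_zpow b a).eq

theorem sec (hM : IsPModular p M) {v : G} (hv : IsPGroup p (Subgroup.zpowers v))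
    {j bh : GA (locRing hM) G} (hjf : FixBy (Subgroup.zpowers v) j) (hj : j * j = j)
    (hbs : SuppOn (Cn (Subgroup.zpowers v)) bh) (hbf : FixBy (Cn (Subgroup.zpowers v)) bh)
    (hb : bh * bh = bh)
    (hjb : br (Subgroup.zpowers v) (redO hM j) * redO hM bh = br (Subgroup.zpowers v) (redO hM j))
    (τ : G → ℂ) (hτ : IsClassFunction G τ)
    (hz : ∀ s ∈ Cn (Subgroup.zpowers v), IsPRegular p s → ev hM τ (of (v * s) * bh) = 0) :
    ev hM τ (of v * j) = 0 := by
  set P : Subgroup G := Subgroup.zpowers v with hP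
  set e0 : GA (Kr hM) G := br P (redO hM j) with he0
  have hPC : P ≤ Cn P := sec_zpowers_le_Cn v
  have hvP : v ∈ P := Subgroup.mem_zpowers v
  have he0i : e0 * e0 = e0 := by
    rw [he0, ← br_mul hv (fixBy_redO hM hjf) (fixBy_redO hM hjf), ← map_mul, hj]
  have he0S : SuppOn (Cn P) e0 := br_suppOn P _
  have he0F : FixBy P e0 := (fixBy_redO hM hjf).br Subgroup.le_normalizer
  have hcomm : e0 * redO hM bh = redO hM bh * e0 :=
    commute_of_suppOn_fixBy he0S (fixBy_redO hM hbf)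
  obtain ⟨i, hiS, hiF, hi, hbi, hib, hred⟩ :=
    lift_idem_corner hM (Cn P) P hbs (hbf.mono hPC) hb he0S he0F he0i (hcomm ▸ hjb) hjb
  have hbr : br P (redO hM i) = br P (redO hM j) := by
    rw [br_eq_self (suppOn_redO hM hiS), hred]
  have h1 := ev_eq_of_br_eq hM hv hiF hi hjf hj hbr τ hτ
  rw [← h1]
  have hvi : of v * i = i * of v := (cj_eq_iff_commute v i).1 (hiF v hvP)
  have h2 : of v * i = i * (of v * bh) := by
    rw [← mul_assoc, ← hvi, mul_assoc, hib]
  rw [h2, ev_eq_sum_of]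
  refine proj_vanish hM hiS hi (fun h => ev hM τ (of h * (of v * bh))) ?_ ?_
  · intro h _ x hx
    show ev hM τ (of (x * h * x⁻¹) * (of v * bh)) = ev hM τ (of h * (of v * bh))
    rw [← ev_cj hM τ hτ x (of h * (of v * bh)), cj_mul, cj_mul, sec_cj_of, sec_cj_of, hbf x hx]
    have hxv : x * v * x⁻¹ = v := by
      have := mem_Cn.1 hx v hvP
      rw [← this, mul_inv_cancel_right]
    rw [hxv]
  · intro h hh hreg
    show ev hM τ (of h * (of v * bh)) = 0
    rw [← mul_assoc, GA.of_mul_of, ← mem_Cn.1 hh v hvP]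
    exact hz h hh hreg

end Cfsg.Agent.Lib.Helper83.Star
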