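import Mathlib
import Cfsg.Agent.Lib.Helper83.Star.Base
import Cfsg.Agent.Lib.Helper83.Star.HubStmt
import Cfsg.Agent.Lib.Helper83.Star.LDI
import Cfsg.Agent.Lib.Helper83.Star.PK
import Cfsg.Agent.Lib.Helper83.Star.MAXSUB
import Cfsg.Agent.Lib.Helper83.Star.NL1
import Cfsg.Agent.Lib.Helper83.Star.GREENGA
import Cfsg.Agent.Lib.Helper83.Star.CLA
import Cfsg.Agent.Lib.Helper83.Star.SEC
import Cfsg.Agent.Lib.Helper83.Star.L1
import Cfsg.Agent.Lib.Helper83.Star.SB
import Cfsg.Agent.Lib.Helper83.Star.CH
import Cfsg.Agent.Lib.Helper83.Star.BR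
import Cfsg.Agent.Lib.Helper83.Star.IND1
import Cfsg.Agent.Lib.Helper83.Star.IND2
import Cfsg.Agent.Lib.Helper83.Star.PRIMIND
import Cfsg.Agent.Lib.Helper80.MTAlgClosed
import Cfsg.Agent.Lib.Helper32.GenChar
import Cfsg.Agent.Lib.Helper4.CharBasic

/-! STAR ladder: the hub (integrality of the Broué–Puig star construction). -/

set_option autoImplicit false
set_option linter.unusedSectionVars false

namespace Cfsg.Agent.Lib.Helper83.Star

open scoped BigOperators
open Cfsg Cfsg.Agent.Lib.Helper80 Cfsg.Agent.Lib.Helper80.GA Cfsg.Agent.Lib.Helper81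

variable {p : ℕ} [Fact p.Prime] {M : Ideal AlgInt} {G : Type*} [Group G] [Fintype G]

theorem genChar_mul_char {H : Type*} [Group H] {a b : H → ℂ} (ha : IsGeneralizedCharacter H a)
    (hb : IsCharacter H b) : IsGeneralizedCharacter H (a * b) := by
  obtain ⟨c, d, hc, hd, rfl⟩ := ha
  exact ⟨c * b, d * b, Cfsg.Agent.Lib.Helper4.isCharacter_mul hc hb,
    Cfsg.Agent.Lib.Helper4.isCharacter_mul hd hb, by rw [sub_mul]⟩

theorem tw_add (hM : IsPModular p M) (τ : G → ℂ) (Q : Subgroup G) (i j : GA (locRing hM) G) :
    tw hM τ Q (i + j) = tw hM τ Q i + tw hM τ Q j := by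
  funext u
  show ev hM τ (of (u : G) * (i + j)) = ev hM τ (of (u : G) * i) + ev hM τ (of (u : G) * j)
  rw [mul_add, ev_add]

theorem isPGroup_zpowers_of_mem {Q : Subgroup G} (hQ : IsPGroup p Q) {v : G} (hv : v ∈ Q) :
    IsPGroup p (Subgroup.zpowers v) :=
  hQ.to_le (by rw [Subgroup.zpowers_le]; exact hv)

theorem fixBy_zpowers_of_mem {R : Type*} [CommRing R] {Q : Subgroup G} {j : GA R G}
    (hj : FixBy Q j) {v : G} (hv : v ∈ Q) : FixBy (Subgroup.zpowers v) j :=
  hj.mono (by rw [Subgroup.zpowers_le]; exact hv)

/-- the hub -/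
theorem hub (hM : IsPModular p M) : HubStmt hM G := by
  intro χ θ L hχ hθ ha hb
  have : CharP (Kr hM) p := instCharPKr hM
  apply genChar_of_tw hM hθ
  -- the claim, by induction on the order of `Q`
  have claim : ∀ (n : ℕ) (Q : Subgroup G), Nat.card Q = n → IsPGroup p Q →
      ∀ j : GA (locRing hM) G, FixBy Q j → j * j = j →
        IsGeneralizedCharacter Q (tw hM θ Q j) := by
    intro n
    induction n using Nat.strong_induction_on with
    | _ n ih =>
      intro Q hcard hQ
      apply prim_induction hM (fun j => IsGeneralizedCharacter Q (tw hM θ Q j))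
      · intro i j _ _ _ _ _ _ hi hj
        show IsGeneralizedCharacter Q (tw hM θ Q (i + j))
        rw [tw_add]
        exact Cfsg.Agent.Lib.Helper32.genChar_add hi hj
      · intro j hj
        show IsGeneralizedCharacter Q (tw hM θ Q j)
        have hjf : FixBy Q j := hj.1
        have hjj : j * j = j := hj.2.1
        have hjb : Prim Q (redO hM j) := prim_redO hM hj
        have hloc : LocAt Q (redO hM j) := locAt_of_prim hjb
        by_cases hj0 : redO hM j = 0
        · -- zero reduction
          have : tw hM θ Q j = 0 := by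
            funext u
            show ev hM θ (of (u : G) * j) = 0
            have h1 := ev_eq_of_br_eq hM (isPGroup_zpowers_of_mem hQ u.2)
              (fixBy_zpowers_of_mem hjf u.2) hjj (FixBy.zero) (mul_zero (0 : GA (locRing hM) G))
              (by rw [hj0, map_zero]) θ hθ
            rw [h1, mul_zero, ev_zero]
          rw [this]
          exact Cfsg.Agent.Lib.Helper32.genChar_zero
        by_cases hbr : br Q (redO hM j) = 0
        · -- non-local case
          obtain ⟨T, hTQ, hN, hidx, hsupp⟩ := exists_max_supp hQ hjb.1 hjb.2.1 hloc hj0 hbr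
          have hex : ∃ x ∈ Q, x ∉ T := by
            by_contra hcon
            push Not at hcon
            have hQT : Q ≤ T := hcon
            have : T.relIndex Q = 1 := Subgroup.relIndex_eq_one.2 hQT
            rw [hidx] at this
            exact (Fact.out : p.Prime).one_lt.ne' this
          obtain ⟨x, hx, hxT⟩ := hex
          obtain ⟨lb, hlf, hll, hjl, hlj, horth, hsum⟩ :=
            green_ga hjb hj0 hTQ hN hidx hsupp hx hxT
          obtain ⟨l, -, hlF, hl, -, -, hlred⟩ := lift_idem_corner hM ⊤ T
            (fun g hg => absurd (Subgroup.mem_top g) hg) (hjf.mono hTQ) hjj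
            (fun g hg => absurd (Subgroup.mem_top g) hg) hlf hll hjl hlj
          have hlt : Nat.card T < n := by
            rw [← hcard]
            have hlt' : T < Q := lt_of_le_of_ne hTQ (fun h => hxT (h ▸ hx))
            exact Set.ncard_lt_ncard (s := (T : Set G)) (t := (Q : Set G))
              (SetLike.coe_ssubset_coe.2 hlt') (Set.toFinite _)
          have hT := ih _ hlt T rfl (hQ.to_le hTQ) l hlF hl
          refine genChar_of_index_p hTQ hN hidx hx hxT _ hT _ ?_
          intro u
          exact tw_eq_sum_conj hM hθ hQ hTQ hN hidx hx hxT hjf hjj hlF hl hsupp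
            (by rw [hlred]; exact horth) (by rw [hlred]; exact hsum) u
        · -- local case
          obtain ⟨f, hf, hjf'⟩ := exists_blk_of_local hQ hjb.1 hjb.2.1 hloc hbr
          have hBP : IsBP p Q f := ⟨hQ, hf⟩
          have hβ : ∀ v : Q, ∃ b, IsBlk (Cn (Subgroup.zpowers (v : G))) b ∧
              BPLE p (Subgroup.zpowers (v : G), b) (Q, f) := fun v =>
            hBP.exists_subpair' (by rw [Subgroup.zpowers_le]; exact v.2)
          choose β hβ1 hβ2 using hβ
          have hgen := hb Q f hBP β hβ2
          have hch := isCharacter_tw hM hχ hjf hjj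
          have : tw hM θ Q j = (fun v : Q => L (v : G) (β v)) * tw hM χ Q j := by
            funext v
            show ev hM θ (of (v : G) * j) = L (v : G) (β v) * ev hM χ (of (v : G) * j)
            have hvp := isPGroup_zpowers_of_mem hQ v.2
            obtain ⟨bh, hbs, hbF, hbb, -, -, hbred⟩ := lift_idem_corner hM
              (Cn (Subgroup.zpowers (v : G))) (Cn (Subgroup.zpowers (v : G)))
              (e := 1) SuppOn.one FixBy.one (one_mul 1) (hβ1 v).inZ.1 (hβ1 v).inZ.2 (hβ1 v).idem
              (by rw [map_one, one_mul]) (by rw [map_one, mul_one])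
            have hτ : IsClassFunction G (fun g => θ g - L (v : G) (β v) * χ g) := by
              intro g h
              show θ _ - _ * χ _ = θ g - _ * χ g
              rw [hθ g h, Cfsg.Agent.Lib.Helper4.isClassFunction_of_char hχ g h]
            have h0 := sec hM hvp (fixBy_zpowers_of_mem hjf v.2) hjj hbs hbF hbb
              (by rw [hbred]; exact sb hQ hjb.1 hjb.2.1 hloc hbr hf hjf' _ _ (hβ2 v))
              _ hτ (by
                intro s hs hreg
                rw [ev_fun_sub_smul, ha v hvp bh hbs hbF hbb (by rw [hbred]; exact hβ1 v) s hs hreg,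
                  hbred, sub_self])
            rw [ev_fun_sub_smul, sub_eq_zero] at h0
            exact h0
          rw [this]
          exact genChar_mul_char hgen hch
  intro Q hQ j hjf hjj
  exact claim _ Q rfl hQ j hjf hjj

end Cfsg.Agent.Lib.Helper83.Star
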