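import Mathlib
import Cfsg.Agent.Lib.Helper83.Star.Base
import Cfsg.Agent.Lib.Helper4.Brauer3
import Cfsg.Agent.Lib.Helper4.DadeVirt2
import Cfsg.Agent.Lib.Helper1.Cores
import Cfsg.Agent.Lib.Helper58.NormalComplement
import Cfsg.Agent.Lib.Helper19.IndFun2
import Cfsg.Agent.Lib.Helper19.LinChar

set_option autoImplicit false
set_option linter.unusedSectionVars false

namespace Cfsg.Agent.Lib.Helper83.Star

open scoped BigOperators ComplexConjugate
open Cfsg Cfsg.Agent.Lib.Helper80 Cfsg.Agent.Lib.Helper80.GA Cfsg.Agent.Lib.Helper81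

variable {p : ℕ} [Fact p.Prime] {M : Ideal AlgInt} {G : Type*} [Group G] [Fintype G]

/-- a finite nilpotent group has a normal `q`-complement -/
theorem npc_of_isNilpotent {E : Type*} [Group E] [Finite E]
    [Group.IsNilpotent E] (q : ℕ) [hq : Fact q.Prime] : Cfsg.HasNormalPComplement q E := by
  have hK : (Cfsg.pPrimeCore q E).Normal := Cfsg.Agent.Lib.Helper1.pPrimeCore_normal q E
  have hidx : (Cfsg.pPrimeCore q E).index =
      q ^ (Cfsg.pPrimeCore q E).index.primeFactorsList.length := by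
    apply Nat.eq_prime_pow_of_unique_prime_dvd Subgroup.index_ne_zero_of_finite
    intro r hr hrd
    by_contra hne
    have := Fact.mk hr
    obtain ⟨R⟩ : Nonempty (Sylow r E) := inferInstance
    have hRle : (R : Subgroup E) ≤ Cfsg.pPrimeCore q E := by
      apply Cfsg.Agent.Lib.Helper1.le_pPrimeCore inferInstance
      obtain ⟨k, hk⟩ := R.isPGroup'.exists_card_eq
      rw [hk]
      exact Nat.Coprime.pow_left k ((Nat.coprime_primes hr hq.out).mpr hne)
    exact R.not_dvd_index (hrd.trans (Subgroup.index_dvd_of_le hRle))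
  exact Cfsg.Agent.Lib.Helper58.hasNormalPComplement_of_card _ _ hidx
    (Cfsg.Agent.Lib.Helper1.pPrimeCore_coprime q E)

/-- the idempotent of a linear character of a `p'`-subgroup -/
theorem exists_linIdem (hM : IsPModular p M) (K : Subgroup G) (μ : K →* ℂˣ)
    (hK : ¬ p ∣ Nat.card K) :
    ∃ j : GA (locRing hM) G,
      (∀ g, ((j g : locRing hM) : ℂ) =
        (Nat.card K : ℂ)⁻¹ * extendByZero K (fun s => ((μ s : ℂˣ) : ℂ)) g) ∧ j * j = j := by
  classical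
  have hK0 : (Nat.card K : ℂ) ≠ 0 := by exact_mod_cast Nat.card_pos.ne'
  have hmem : ∀ g, (Nat.card K : ℂ)⁻¹ * extendByZero K (fun s => ((μ s : ℂˣ) : ℂ)) g ∈
      locRing hM := by
    intro g
    rw [mem_locRing]
    apply memLocalRing_mul hM
    · apply memLocalRing_inv (memLocalRing_natCast hM _)
      rw [memLocalIdeal_natCast_iff hM]
      exact hK
    · by_cases hg : g ∈ K
      · rw [Cfsg.Agent.Lib.Helper19.extendByZero_of_mem K _ hg]
        apply memLocalRing_of_isIntegral hM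
        apply IsIntegral.of_pow (n := Nat.card K) Nat.card_pos
        have h1 : (μ ⟨g, hg⟩) ^ Nat.card K = 1 := by
          rw [← map_pow, pow_card_eq_one', map_one]
        have h2 : ((μ ⟨g, hg⟩ : ℂˣ) : ℂ) ^ Nat.card K = 1 := by
          rw [← Units.val_pow_eq_pow_val, h1, Units.val_one]
        rw [h2]
        exact isIntegral_one
      · rw [Cfsg.Agent.Lib.Helper19.extendByZero_of_not_mem K _ hg]
        exact memLocalRing_zero hM
  obtain ⟨j, hj⟩ : ∃ j : GA (locRing hM) G, ∀ g, j g =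
      ⟨(Nat.card K : ℂ)⁻¹ * extendByZero K (fun s => ((μ s : ℂˣ) : ℂ)) g, hmem g⟩ :=
    ⟨fun g => ⟨_, hmem g⟩, fun _ => rfl⟩
  have hj' : ∀ g, ((j g : locRing hM) : ℂ) =
      (Nat.card K : ℂ)⁻¹ * extendByZero K (fun s => ((μ s : ℂˣ) : ℂ)) g := by
    intro g
    rw [hj g]
  refine ⟨j, hj', ?_⟩
  ext g
  rw [GA.mul_apply]
  push_cast
  simp only [hj']
  have h1 : ∀ x : G, (Nat.card K : ℂ)⁻¹ * extendByZero K (fun s => ((μ s : ℂˣ) : ℂ)) x *
      ((Nat.card K : ℂ)⁻¹ * extendByZero K (fun s => ((μ s : ℂˣ) : ℂ)) (x⁻¹ * g)) =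
      extendByZero K (fun s => ((μ s : ℂˣ) : ℂ)) x * ((Nat.card K : ℂ)⁻¹ * (Nat.card K : ℂ)⁻¹ *
        extendByZero K (fun s => ((μ s : ℂˣ) : ℂ)) (x⁻¹ * g)) := by
    intro x
    ring
  simp only [h1]
  rw [Cfsg.Agent.Lib.Helper19.sum_extendByZero_mul K (fun s => ((μ s : ℂˣ) : ℂ))
    (fun x => (Nat.card K : ℂ)⁻¹ * (Nat.card K : ℂ)⁻¹ *
        extendByZero K (fun s => ((μ s : ℂˣ) : ℂ)) (x⁻¹ * g))]
  by_cases hg : g ∈ K
  · have h2 : ∀ s : K, ((μ s : ℂˣ) : ℂ) * ((Nat.card K : ℂ)⁻¹ * (Nat.card K : ℂ)⁻¹ *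
        extendByZero K (fun s => ((μ s : ℂˣ) : ℂ)) ((s : G)⁻¹ * g)) =
        (Nat.card K : ℂ)⁻¹ * (Nat.card K : ℂ)⁻¹ * ((μ ⟨g, hg⟩ : ℂˣ) : ℂ) := by
      intro s
      have hs : (s : G)⁻¹ * g ∈ K := K.mul_mem (K.inv_mem s.2) hg
      rw [Cfsg.Agent.Lib.Helper19.extendByZero_of_mem K _ hs]
      have h3 : μ ⟨g, hg⟩ = μ s * μ ⟨(s : G)⁻¹ * g, hs⟩ := by
        rw [← map_mul]
        congr 1
        apply Subtype.ext
        simp
      rw [h3, Units.val_mul]
      ring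
    simp only [h2]
    rw [Finset.sum_const, Finset.card_univ, ← Nat.card_eq_fintype_card, nsmul_eq_mul,
      Cfsg.Agent.Lib.Helper19.extendByZero_of_mem K _ hg]
    field_simp
  · rw [Cfsg.Agent.Lib.Helper19.extendByZero_of_not_mem K _ hg, mul_zero]
    apply Finset.sum_eq_zero
    intro s _
    have hs : (s : G)⁻¹ * g ∉ K := by
      intro h
      apply hg
      have := K.mul_mem s.2 h
      simpa using this
    rw [Cfsg.Agent.Lib.Helper19.extendByZero_of_not_mem K _ hs]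
    ring

theorem tw_linIdem (hM : IsPModular p M) (K : Subgroup G) [Fintype K] (μ : K → ℂ) (θ : G → ℂ)
    (Q : Subgroup G) (j : GA (locRing hM) G)
    (hj : ∀ g, ((j g : locRing hM) : ℂ) = (Nat.card K : ℂ)⁻¹ * extendByZero K μ g) (u : Q) :
    tw hM θ Q j u = (Nat.card K : ℂ)⁻¹ * ∑ s : K, μ s * θ ((u : G) * s) := by
  classical
  unfold tw ev
  rw [← Equiv.sum_comp (Equiv.mulLeft (u : G))]
  have h1 : ∀ g : G, (((of (u : G) * j : GA (locRing hM) G) ((Equiv.mulLeft (u : G)) g) :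
      locRing hM) : ℂ) * θ ((Equiv.mulLeft (u : G)) g) =
      (Nat.card K : ℂ)⁻¹ * (extendByZero K μ g * θ ((u : G) * g)) := by
    intro g
    rw [GA.of_mul_apply]
    change ((j ((u : G)⁻¹ * ((u : G) * g)) : locRing hM) : ℂ) * θ ((u : G) * g) = _
    rw [inv_mul_cancel_left, hj]
    ring
  simp only [h1]
  rw [← Finset.mul_sum, Cfsg.Agent.Lib.Helper19.sum_extendByZero_mul K μ (fun g => θ ((u : G) * g))]

theorem conj_unit_hom {E : Type*} [Group E] [Finite E] (lam : E →* ℂˣ) (e : E) :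
    conj ((lam e : ℂˣ) : ℂ) = (((lam e)⁻¹ : ℂˣ) : ℂ) := by
  have h1 : (lam e) ^ Nat.card E = 1 := by
    rw [← map_pow, pow_card_eq_one', map_one]
  have h2 : ((lam e : ℂˣ) : ℂ) ^ Nat.card E = 1 := by
    rw [← Units.val_pow_eq_pow_val, h1, Units.val_one]
  have h3 : ‖((lam e : ℂˣ) : ℂ)‖ = 1 :=
    Complex.norm_eq_one_of_pow_eq_one h2 Nat.card_pos.ne'
  rw [Units.val_inv_eq_inv_val, Complex.inv_eq_conj h3]

theorem br_core (hM : IsPModular p M) {θ : G → ℂ}
    (h : ∀ Q : Subgroup G, IsPGroup p Q → ∀ j : GA (locRing hM) G, FixBy Q j → j * j = j →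
      IsGeneralizedCharacter Q (tw hM θ Q j)) (E : Subgroup G) [Fintype E]
    (hE : HasNormalPComplement p E) (lam : E →* ℂˣ) :
    ∃ z : ℤ, classInner (fun e : E => θ e) (fun e => ((lam e : ℂˣ) : ℂ)) = z := by
  classical
  obtain ⟨P, N, hN, hc⟩ := hE
  set Q : Subgroup G := (P : Subgroup E).map E.subtype with hQ
  set K : Subgroup G := N.map E.subtype with hKdef
  have hQE : Q ≤ E := by
    rintro _ ⟨x, -, rfl⟩
    exact x.2
  have hKE : K ≤ E := by
    rintro _ ⟨x, -, rfl⟩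
    exact x.2
  let eQ : (P : Subgroup E) ≃* Q := (P : Subgroup E).equivMapOfInjective E.subtype E.subtype_injective
  let eK : N ≃* K := N.equivMapOfInjective E.subtype E.subtype_injective
  have heQ : ∀ u : (P : Subgroup E), ((eQ u : Q) : G) = ((u : E) : G) := fun u => rfl
  have heK : ∀ s : N, ((eK s : K) : G) = ((s : E) : G) := fun s => rfl
  have hcardQ : Nat.card Q = Nat.card (P : Subgroup E) := (Nat.card_congr eQ.toEquiv).symm
  have hcardK : Nat.card K = Nat.card N := (Nat.card_congr eK.toEquiv).symm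
  have hQp : IsPGroup p Q := P.2.map E.subtype
  have hKp : ¬ p ∣ Nat.card K := by
    rw [hcardK, ← hc.index_eq_card]
    exact P.not_dvd_index
  let μ : K →* ℂˣ := (lam.comp (Subgroup.inclusion hKE))⁻¹
  have hμ : ∀ s : N, μ (eK s) = (lam (s : E))⁻¹ := by
    intro s
    change (lam (Subgroup.inclusion hKE (eK s)))⁻¹ = _
    congr 2
  obtain ⟨j, hj, hjj⟩ := exists_linIdem hM K μ hKp
  have hfix : FixBy Q j := by
    rw [fixBy_iff]
    intro x hx g
    apply Subtype.ext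
    rw [hj, hj]
    congr 1
    have hxE : x ∈ E := hQE hx
    by_cases hg : g ∈ K
    · obtain ⟨s, hs, rfl⟩ := hg
      have hs' : (⟨x, hxE⟩ : E) * s * (⟨x, hxE⟩ : E)⁻¹ ∈ N := hN.conj_mem s hs _
      have e1 : x * E.subtype s * x⁻¹ = ((eK ⟨_, hs'⟩ : K) : G) := rfl
      have e2 : E.subtype s = ((eK ⟨s, hs⟩ : K) : G) := rfl
      rw [e1, e2, Cfsg.Agent.Lib.Helper19.extendByZero_coe, Cfsg.Agent.Lib.Helper19.extendByZero_coe,
        hμ, hμ]
      congr 2
      change lam ((⟨x, hxE⟩ : E) * s * (⟨x, hxE⟩ : E)⁻¹) = lam s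
      rw [map_mul, map_mul, map_inv, mul_comm, inv_mul_cancel_left]
    · have hg' : x * g * x⁻¹ ∉ K := by
        rintro ⟨s, hs, hse⟩
        apply hg
        have hs' : (⟨x, hxE⟩ : E)⁻¹ * s * (⟨x, hxE⟩ : E)⁻¹⁻¹ ∈ N := hN.conj_mem s hs _
        refine ⟨_, hs', ?_⟩
        change x⁻¹ * E.subtype s * x⁻¹⁻¹ = g
        rw [hse]
        group
      rw [Cfsg.Agent.Lib.Helper19.extendByZero_of_not_mem K _ hg,
        Cfsg.Agent.Lib.Helper19.extendByZero_of_not_mem K _ hg']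
  obtain ⟨χ₁, χ₂, h₁, h₂, h12⟩ := h Q hQp j hfix hjj
  let ν : Q →* ℂˣ := lam.comp (Subgroup.inclusion hQE)
  have hν : IsCharacter Q (fun u => ((ν u : ℂˣ) : ℂ)) :=
    (Cfsg.Agent.Lib.Helper19.isCharacter_homFun ν).1
  obtain ⟨n₁, hn₁⟩ := Cfsg.Agent.Lib.Helper4.classInner_char_char h₁ hν
  obtain ⟨n₂, hn₂⟩ := Cfsg.Agent.Lib.Helper4.classInner_char_char h₂ hν
  refine ⟨(n₁ : ℤ) - n₂, ?_⟩
  have hz : classInner (tw hM θ Q j) (fun u => ((ν u : ℂˣ) : ℂ)) = ((n₁ : ℤ) - n₂ : ℤ) := by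
    rw [h12, Cfsg.Agent.Lib.Helper4.classInner_sub_left, hn₁, hn₂]
    push_cast
    ring
  rw [← hz]
  unfold classInner
  have hcardE : (Nat.card E : ℂ) = (Nat.card Q : ℂ) * (Nat.card K : ℂ) := by
    rw [hcardQ, hcardK, ← Nat.cast_mul, mul_comm, hc.card_mul_card]
  rw [hcardE, mul_inv, mul_assoc]
  congr 1
  rw [← Equiv.sum_comp (Equiv.ofBijective _ hc.symm), Fintype.sum_prod_type,
    ← Equiv.sum_comp eQ.toEquiv, Finset.mul_sum]
  refine Finset.sum_congr rfl (fun u _ => ?_)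
  rw [tw_linIdem hM K (fun s => ((μ s : ℂˣ) : ℂ)) θ Q j hj, mul_assoc, Finset.sum_mul,
    ← Equiv.sum_comp eK.toEquiv]
  congr 1
  refine Finset.sum_congr rfl (fun s _ => ?_)
  change θ (((u : E) * (s : E) : E) : G) * conj ((lam ((u : E) * (s : E)) : ℂˣ) : ℂ) =
    ((μ (eK s) : ℂˣ) : ℂ) * θ (((eQ u : Q) : G) * ((eK s : K) : G)) * conj ((ν (eQ u) : ℂˣ) : ℂ)
  have hνu : ν (eQ u) = lam (u : E) := by
    change lam (Subgroup.inclusion hQE (eQ u)) = _
    congr 1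
  rw [hμ, hνu, heQ, heK, map_mul, Units.val_mul, map_mul, conj_unit_hom lam s]
  change θ (((u : E) : G) * ((s : E) : G)) * _ = _
  ring

theorem genChar_of_tw (hM : IsPModular p M) {θ : G → ℂ} (hθ : IsClassFunction G θ)
    (h : ∀ Q : Subgroup G, IsPGroup p Q → ∀ j : GA (locRing hM) G, FixBy Q j → j * j = j →
      IsGeneralizedCharacter Q (tw hM θ Q j)) : IsGeneralizedCharacter G θ := by
  classical
  apply Cfsg.Agent.Lib.Helper4.genChar_of_classInner_int' hθ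
  intro χ hχ
  have hmem := Cfsg.Agent.Lib.Helper4.char_mem_indSpanLin_isElem
    (Cfsg.Agent.Lib.Helper4.isCharacter_of_irr hχ)
  unfold Cfsg.Agent.Lib.Helper4.indSpanLin at hmem
  clear hχ
  induction hmem using AddSubgroup.closure_induction with
  | mem φ hφ =>
    obtain ⟨E, lam, ⟨q, hq, hE⟩, rfl⟩ := hφ
    have : Fact q.Prime := ⟨hq⟩
    have hnil : Group.IsNilpotent E := Cfsg.Agent.Lib.Helper4.isNilpotent_of_isElementary hE
    obtain ⟨z, hz⟩ := br_core hM h E (npc_of_isNilpotent p) lam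
    refine ⟨z, ?_⟩
    rw [← Cfsg.Agent.Lib.Helper4.classInner_conj_symm,
      Cfsg.Agent.Lib.Helper19.frobenius_reciprocity E _ θ hθ,
      Cfsg.Agent.Lib.Helper4.classInner_conj_symm, hz]
  | zero =>
    refine ⟨0, ?_⟩
    unfold classInner
    simp
  | add a b _ _ ha hb =>
    obtain ⟨z₁, h₁⟩ := ha
    obtain ⟨z₂, h₂⟩ := hb
    refine ⟨z₁ + z₂, ?_⟩
    rw [Cfsg.Agent.Lib.Helper4.classInner_add_right, h₁, h₂]
    push_cast
    ring
  | neg a _ ha =>
    obtain ⟨z, hz⟩ := ha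
    refine ⟨-z, ?_⟩
    rw [Cfsg.Agent.Lib.Helper4.classInner_neg_right, hz]
    push_cast
    ring

end Cfsg.Agent.Lib.Helper83.Star
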