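import Mathlib
import Cfsg.Agent.Lib.Helper81.SubsecUnit
import Cfsg.Agent.Lib.Helper81.SubsecNorm
import Cfsg.Agent.Lib.Helper80.GALink
import Cfsg.Agent.Lib.Helper20.CharCongr

/-! HZ: a character of height zero has nonzero `(u,b)`-component for EVERY subsection `(u,b)`
(Broué), by a purely character theoretic argument. -/

set_option autoImplicit false
set_option linter.unusedSectionVars false

namespace Cfsg.Agent.Lib.Helper83.Star

open scoped BigOperators ComplexConjugate
open Cfsg Cfsg.Agent.Lib.Helper81 Cfsg.Agent.Lib.Helper20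

variable {G : Type*} [Group G] [Fintype G] {p : ℕ} {M : Ideal AlgInt}

open Classical in
/-- `S(ξ, φ)` only sees the `b`-part of `φ`. -/
theorem Sm_eq_Sm_blockPart (hM : IsPModular p M) {H : Type*} [Group H] [Fintype H]
    {b : Set (IrrCharacter H)} (hb : IsPBlock M b)
    {ξ : IrrCharacter H} (hξ : ξ ∈ b) {φ : H → ℂ} (hφ : IsClassFunction H φ) :
    Sm p (ξ : H → ℂ) φ = Sm p (ξ : H → ℂ) (blockPart b φ) := by
  have : Finite (IrrCharacter H) := finite_irrCharacter
  have : Fintype (IrrCharacter H) := Fintype.ofFinite _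
  conv_lhs => rw [eq_sum_classInner_smul hφ]
  rw [blockPart_eq_sum, Sm_sum_right, Sm_sum_right]
  apply Finset.sum_congr rfl; intro ζ _
  split_ifs with hζ
  · rfl
  · have : ¬ SameBlock M (ξ : H → ℂ) (ζ : H → ℂ) := by
      intro hs
      apply hζ
      rw [isPBlock_eq_blockOf hM hb hξ]
      exact hs
    rw [Sm_eq, mC_eq_zero hM this]; simp

/-- **HZ** -/
theorem hz (hM : IsPModular p M) (H : Subgroup G) [Fintype H] (u : G)
    (hu : ∃ k : ℕ, orderOf u = p ^ k) (hcomm : ∀ c : H, u * (c : G) = (c : G) * u)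
    {b : Set (IrrCharacter H)} {B : Set (IrrCharacter G)} (hind : IsInducedBlock M H b B)
    {χ : IrrCharacter G} (hχ : χ ∈ B) (h0 : blockHeight p B (χ : G → ℂ) = 0) :
    ∃ s : H, IsPRegular p s ∧ Th H b u (χ : G → ℂ) s ≠ 0 := by
  classical
  obtain ⟨ξ, hξ⟩ := isPBlock_nonempty hM hind.1
  obtain ⟨k, hk⟩ := hu
  have hχc : IsClassFunction G (χ : G → ℂ) := irr_classFunction χ
  set φ : H → ℂ := fun c : H => (χ : G → ℂ) (u * (c : G)) with hφ
  have hφc : IsClassFunction H φ := by
    intro g h
    show (χ : G → ℂ) (u * ((h * g * h⁻¹ : H) : G)) = (χ : G → ℂ) (u * (g : G))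
    have : u * ((h * g * h⁻¹ : H) : G) = (h : G) * (u * (g : G)) * (h : G)⁻¹ := by
      push_cast
      rw [← mul_assoc, ← mul_assoc, hcomm h]
      simp only [mul_assoc]
    rw [this, hχc]
  have hunit := Sm_res_unit hM H hind hξ hχ h0
  -- congruence
  have hcong : MemLocalIdeal M (Sm p (ξ : H → ℂ) φ
      - Sm p (ξ : H → ℂ) (fun k : H => (χ : G → ℂ) k)) := by
    unfold Sm
    rw [← omega_sub]
    apply Cfsg.Agent.Lib.Helper80.omega_memLocalIdeal hM ξ
    · exact Cfsg.Agent.Lib.Helper80.classFunction_sub (wfun_classFunction (p := p) hφc)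
        (wfun_classFunction (p := p) (res_classFunction' H hχc))
    · intro g
      show MemLocalIdeal M (wfun p φ g - wfun p (fun k : H => (χ : G → ℂ) k) g)
      simp only [wfun, pRegularPart_eq]
      by_cases hg : IsPRegular p g⁻¹
      · rw [if_pos hg, if_pos hg]
        apply isCharacter_mul_sub_memLocalIdeal hM (isCharacter_of_isIrrCharacter χ.2)
          (hcomm g⁻¹) (k := k) (by rw [← hk]; exact pow_orderOf_eq_one u)
        have : orderOf ((g⁻¹ : H) : G) = orderOf (g⁻¹ : H) := Subgroup.orderOf_coe _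
        rw [this]
        exact hg
      · rw [if_neg hg, if_neg hg, sub_self]
        exact memLocalIdeal_zero hM
  have hne : ¬ MemLocalIdeal M (Sm p (ξ : H → ℂ) φ) := by
    intro h
    apply hunit
    have := memLocalIdeal_sub hM h hcong
    simpa using this
  rw [Sm_eq_Sm_blockPart hM hind.1 hξ hφc] at hne
  by_contra hcon
  push Not at hcon
  apply hne
  have : wfun p (blockPart b φ) = 0 := by
    funext g
    simp only [wfun, pRegularPart_eq]
    by_cases hg : IsPRegular p g⁻¹
    · rw [if_pos hg]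
      exact hcon g⁻¹ hg
    · rw [if_neg hg]; rfl
  unfold Sm
  rw [this]
  have : omega (ξ : H → ℂ) (0 : H → ℂ) = 0 := by simp [omega]
  rw [this]
  exact memLocalIdeal_zero hM

end Cfsg.Agent.Lib.Helper83.Star
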